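import Mathlib

/-! Arithmetic lemmas for Brauer's sign and square relations. -/

set_option autoImplicit false

namespace Cfsg.Agent.Lib.Helper2.AbSyl

theorem arith_one_minus {Dj Dk Dl wj wk wl : ℤ} (hk : 0 < Dk) (hl : 0 < Dl)
    (hD : Dj = Dk + Dl + 1) (hw : wj = wk + wl)
    (hq : wj ^ 2 * Dk * Dl = (wk ^ 2 * Dl + wl ^ 2 * Dk) * Dj) (hwk : wk ≠ 0) : False := by
  subst hD hw
  have h1 : (wk * Dl - wl * Dk) ^ 2 + wk ^ 2 * Dl + wl ^ 2 * Dk = 0 := by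
    linear_combination -hq
  have h2 : 0 < wk ^ 2 * Dl := mul_pos (by positivity) hl
  have h3 : 0 ≤ wl ^ 2 * Dk := mul_nonneg (sq_nonneg _) hk.le
  nlinarith [sq_nonneg (wk * Dl - wl * Dk)]

theorem arith_two_minus {Db Dc Dd wb wc wd : ℤ} (hD : Db = Dc + Dd - 1) (hw : wb = wc + wd)
    (hq : wb ^ 2 * Dc * Dd = (wc ^ 2 * Dd + wd ^ 2 * Dc) * Db) :
    Db * Dc * Dd * wb ^ 2 = (Db * (wd * Dc - wc * Dd)) ^ 2 := by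
  have h1 : (wd * Dc - wc * Dd) ^ 2 = wc ^ 2 * Dd + wd ^ 2 * Dc := by
    subst hD hw
    linear_combination -hq
  rw [mul_pow, h1]
  linear_combination Db * hq

theorem isSquare_of_mul_sq {n : ℕ} {w z : ℤ} (hw : w ≠ 0) (h : (n : ℤ) * w ^ 2 = z ^ 2) :
    IsSquare n := by
  have h1 : w ^ 2 ∣ z ^ 2 := Dvd.intro_left _ h
  rw [Int.pow_dvd_pow_iff (by norm_num)] at h1
  obtain ⟨k, rfl⟩ := h1
  have h2 : (n : ℤ) = k * k := by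
    have h3 : w ^ 2 ≠ 0 := pow_ne_zero 2 hw
    apply mul_right_cancel₀ h3
    rw [h]; ring
  refine ⟨k.natAbs, ?_⟩
  have : ((k.natAbs * k.natAbs : ℕ) : ℤ) = k * k := by
    rw [Nat.cast_mul]
    exact Int.natAbs_mul_self' k
  exact_mod_cast h2.trans this.symm

theorem arith_signs {e₂ e₃ e₄ D₂ D₃ D₄ v₂ v₃ v₄ : ℤ} (h2 : e₂ = 1 ∨ e₂ = -1)
    (h3 : e₃ = 1 ∨ e₃ = -1) (h4 : e₄ = 1 ∨ e₄ = -1) (hD₂ : 0 < D₂) (hD₃ : 0 < D₃) (hD₄ : 0 < D₄)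
    (hv₂ : v₂ ≠ D₂) (hv₃ : v₃ ≠ D₃) (hv₄ : v₄ ≠ D₄)
    (E1 : 1 + e₂ * D₂ + e₃ * D₃ + e₄ * D₄ = 0) (E2 : 1 + e₂ * v₂ + e₃ * v₃ + e₄ * v₄ = 0)
    (E3 : D₂ * D₃ * D₄ + e₂ * v₂ ^ 2 * D₃ * D₄ + e₃ * v₃ ^ 2 * D₂ * D₄ +
      e₄ * v₄ ^ 2 * D₂ * D₃ = 0) :
    ((e₂ = 1 ∧ e₃ = -1 ∧ e₄ = -1) ∨ (e₂ = -1 ∧ e₃ = 1 ∧ e₄ = -1) ∨
      (e₂ = -1 ∧ e₃ = -1 ∧ e₄ = 1)) ∧ ∃ w z : ℤ, w ≠ 0 ∧ D₂ * D₃ * D₄ * w ^ 2 = z ^ 2 := by
  have hw₂ : v₂ - D₂ ≠ 0 := sub_ne_zero.mpr hv₂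
  have hw₃ : v₃ - D₃ ≠ 0 := sub_ne_zero.mpr hv₃
  have hw₄ : v₄ - D₄ ≠ 0 := sub_ne_zero.mpr hv₄
  set w₂ := v₂ - D₂ with hw₂d
  set w₃ := v₃ - D₃ with hw₃d
  set w₄ := v₄ - D₄ with hw₄d
  have F1 : e₂ * w₂ + e₃ * w₃ + e₄ * w₄ = 0 := by
    rw [hw₂d, hw₃d, hw₄d]; linear_combination E2 - E1
  have F2 : e₂ * w₂ ^ 2 * D₃ * D₄ + e₃ * w₃ ^ 2 * D₂ * D₄ + e₄ * w₄ ^ 2 * D₂ * D₃ = 0 := by
    rw [hw₂d, hw₃d, hw₄d]
    linear_combination E3 - 2 * D₂ * D₃ * D₄ * E2 + D₂ * D₃ * D₄ * E1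
  clear hw₂d hw₃d hw₄d
  clear_value w₂ w₃ w₄
  rcases h2 with rfl | rfl <;> rcases h3 with rfl | rfl <;> rcases h4 with rfl | rfl
  · exfalso; linarith
  · exfalso
    exact arith_one_minus (Dj := D₄) (wj := w₄) (wk := w₂) (wl := w₃) hD₂ hD₃ (by linarith)
      (by linarith) (by linear_combination -F2) hw₂
  · exfalso
    exact arith_one_minus (Dj := D₃) (wj := w₃) (wk := w₂) (wl := w₄) hD₂ hD₄ (by linarith)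
      (by linarith) (by linear_combination -F2) hw₂
  · refine ⟨Or.inl ⟨rfl, rfl, rfl⟩, w₂, _, hw₂,
      arith_two_minus (Db := D₂) (Dc := D₃) (Dd := D₄) (wc := w₃) (wd := w₄) (by linarith)
        (by linarith) (by linear_combination F2)⟩
  · exfalso
    exact arith_one_minus (Dj := D₂) (wj := w₂) (wk := w₃) (wl := w₄) hD₃ hD₄ (by linarith)
      (by linarith) (by linear_combination -F2) hw₃
  · refine ⟨Or.inr (Or.inl ⟨rfl, rfl, rfl⟩), w₃, D₃ * (w₄ * D₂ - w₂ * D₄), hw₃, ?_⟩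
    have := arith_two_minus (Db := D₃) (Dc := D₂) (Dd := D₄) (wb := w₃) (wc := w₂) (wd := w₄)
      (by linarith) (by linarith) (by linear_combination F2)
    linear_combination this
  · refine ⟨Or.inr (Or.inr ⟨rfl, rfl, rfl⟩), w₄, D₄ * (w₃ * D₂ - w₂ * D₃), hw₄, ?_⟩
    have := arith_two_minus (Db := D₄) (Dc := D₂) (Dd := D₃) (wb := w₄) (wc := w₂) (wd := w₃)
      (by linarith) (by linarith) (by linear_combination F2)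
    linear_combination this
  · exfalso
    have h1 : 0 < w₂ ^ 2 * D₃ * D₄ := mul_pos (mul_pos (by positivity) hD₃) hD₄
    have h2 : 0 ≤ w₃ ^ 2 * D₂ * D₄ := mul_nonneg (mul_nonneg (sq_nonneg _) hD₂.le) hD₄.le
    have h3 : 0 ≤ w₄ ^ 2 * D₂ * D₃ := mul_nonneg (mul_nonneg (sq_nonneg _) hD₂.le) hD₃.le
    linarith

end Cfsg.Agent.Lib.Helper2.AbSyl
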