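import Mathlib
import Cfsg.Agent.Lib.Helper2.AbDual
import Cfsg.Agent.Lib.Helper2.CharOps
import Cfsg.Agent.Lib.Helper24.CharInt
import Cfsg.Agent.Lib.Helper6.BlockBase

/-! Multiplicities of linear characters of an abelian subgroup in characters of the group. -/

set_option autoImplicit false

namespace Cfsg.Agent.Lib.Helper2.BL

open Subgroup Cfsg Cfsg.Agent.Lib.Helper2 Cfsg.Agent.Lib.Helper2.AbDual Cfsg.Agent.Lib.Helper6
open scoped ComplexConjugate Classical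

section fourier

variable {A : Type*} [Group A] [Finite A]

/-- Fourier coefficient -/
noncomputable def co (θ : A → ℂ) (ψ : A →* ℂˣ) : ℂ :=
  (Nat.card A : ℂ)⁻¹ * ∑ᶠ y : A, θ y * conj ((ψ y : ℂˣ) : ℂ)

theorem co_eq [Fintype A] (θ : A → ℂ) (ψ : A →* ℂˣ) :
    co θ ψ = (Fintype.card A : ℂ)⁻¹ * ∑ y : A, θ y * conj ((ψ y : ℂˣ) : ℂ) := by
  unfold co
  rw [finsum_eq_sum_of_fintype, Nat.card_eq_fintype_card]

theorem inversion (hc : ∀ a b : A, a * b = b * a) [Fintype (A →* ℂˣ)] (θ : A → ℂ) (y : A) :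
    ∑ ψ : A →* ℂˣ, co θ ψ * ((ψ y : ℂˣ) : ℂ) = θ y := by
  letI := Fintype.ofFinite A
  have hn : (Fintype.card A : ℂ) ≠ 0 := by exact_mod_cast (Fintype.card_pos (α := A)).ne'
  have h1 : ∀ ψ : A →* ℂˣ, co θ ψ * ((ψ y : ℂˣ) : ℂ) = (Fintype.card A : ℂ)⁻¹ *
      ∑ y', θ y' * (((ψ y : ℂˣ) : ℂ) * conj ((ψ y' : ℂˣ) : ℂ)) := by
    intro ψ
    rw [co_eq, mul_assoc, Finset.sum_mul]
    congr 1
    apply Finset.sum_congr rfl
    intro y' _
    ring
  simp only [h1]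
  rw [← Finset.mul_sum, Finset.sum_comm]
  simp only [← Finset.mul_sum, sum_dual_mul_conj hc]
  simp only [mul_ite, mul_zero]
  rw [Finset.sum_ite_eq Finset.univ y]
  simp only [Finset.mem_univ, if_true]
  field_simp

theorem parseval (hc : ∀ a b : A, a * b = b * a) [Fintype (A →* ℂˣ)] [Fintype A] (θ : A → ℂ) :
    ∑ ψ : A →* ℂˣ, co θ ψ * conj (co θ ψ) =
      (Fintype.card A : ℂ)⁻¹ * ∑ y : A, θ y * conj (θ y) := by
  have h1 : ∀ ψ : A →* ℂˣ, co θ ψ * conj (co θ ψ) = (Fintype.card A : ℂ)⁻¹ *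
      ∑ y, conj (θ y) * (co θ ψ * ((ψ y : ℂˣ) : ℂ)) := by
    intro ψ
    conv_lhs => rw [co_eq θ ψ, map_mul, map_inv₀, map_natCast, map_sum, ← co_eq θ ψ]
    rw [mul_left_comm, Finset.mul_sum]
    congr 1
    apply Finset.sum_congr rfl
    intro y _
    rw [map_mul, Complex.conj_conj]
    ring
  simp only [h1]
  rw [← Finset.mul_sum, Finset.sum_comm]
  congr 1
  apply Finset.sum_congr rfl
  intro y _
  rw [← Finset.mul_sum, inversion hc]
  ring

theorem co_comp (θ : A → ℂ) (τ : MulAut A) (hτ : ∀ y, θ (τ y) = θ y) (ψ : A →* ℂˣ) :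
    co θ (ψ.comp τ.toMonoidHom) = co θ ψ := by
  letI := Fintype.ofFinite A
  rw [co_eq, co_eq]
  congr 1
  rw [← Equiv.sum_comp τ.toEquiv (fun y => θ y * conj ((ψ y : ℂˣ) : ℂ))]
  apply Finset.sum_congr rfl
  intro y _
  simp only [MulEquiv.toEquiv_eq_coe, MulEquiv.coe_toEquiv, hτ]
  rfl

end fourier

section mult

variable {G : Type*} [Group G] [Finite G] (A : Subgroup G)

/-- multiplicity of the linear character `ψ` of `A` in the restriction of `η` -/
noncomputable def mult (η : G → ℂ) (ψ : ↥A →* ℂˣ) : ℕ := ⌊(co (fun y : ↥A => η y) ψ).re⌋₊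

variable {A}

theorem mult_spec {η : G → ℂ} (hη : IsCharacter G η) (ψ : ↥A →* ℂˣ) :
    (mult A η ψ : ℂ) = co (fun y : ↥A => η y) ψ := by
  letI := Fintype.ofFinite ↥A
  obtain ⟨n, hn⟩ := IsCharacter.classInner_nat (IsCharacter.restrict A hη)
    (IsIrrCharacter.isCharacter (isIrrCharacter_of_hom ψ))
  have h1 : co (fun y : ↥A => η y) ψ = n := by
    rw [← hn]
    unfold co classInner
    rw [finsum_eq_sum_of_fintype]
  unfold mult
  rw [h1]
  simp

theorem sum_mult (hc : ∀ a b : ↥A, a * b = b * a) [Fintype (↥A →* ℂˣ)] {η : G → ℂ}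
    (hη : IsCharacter G η) : ∑ ψ : ↥A →* ℂˣ, mult A η ψ = charDegree η := by
  have h := inversion hc (fun y : ↥A => η y) 1
  have h2 : ((∑ ψ : ↥A →* ℂˣ, mult A η ψ : ℕ) : ℂ) = (charDegree η : ℂ) := by
    rw [Cfsg.Agent.Lib.Helper24.charDegree_cast hη]
    push_cast
    rw [show η 1 = η ((1 : ↥A) : G) from rfl, ← h]
    apply Finset.sum_congr rfl
    intro ψ _
    rw [mult_spec hη, map_one, Units.val_one, mul_one]
  exact_mod_cast h2

theorem value (hc : ∀ a b : ↥A, a * b = b * a) [Fintype (↥A →* ℂˣ)] {η : G → ℂ}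
    (hη : IsCharacter G η) (y : ↥A) :
    η y = ∑ ψ : ↥A →* ℂˣ, (mult A η ψ : ℂ) * ((ψ y : ℂˣ) : ℂ) := by
  rw [← inversion hc (fun y : ↥A => η y) y]
  apply Finset.sum_congr rfl
  intro ψ _
  rw [mult_spec hη]

theorem sum_mult_sq (hc : ∀ a b : ↥A, a * b = b * a) [Fintype (↥A →* ℂˣ)] {η : G → ℂ}
    (hη : IsCharacter G η) :
    ((∑ ψ : ↥A →* ℂˣ, mult A η ψ ^ 2 : ℕ) : ℂ) = co (fun y : ↥A => η y * conj (η y)) 1 := by
  letI := Fintype.ofFinite ↥A
  have h := parseval hc (fun y : ↥A => η y)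
  rw [co_eq]
  simp only [MonoidHom.one_apply, Units.val_one, map_one, mul_one]
  rw [← h]
  push_cast
  apply Finset.sum_congr rfl
  intro ψ _
  rw [← mult_spec hη, map_natCast]
  ring

theorem mult_comp {η : G → ℂ} (τ : MulAut ↥A) (hτ : ∀ y : ↥A, η (τ y) = η y) (ψ : ↥A →* ℂˣ) :
    mult A η (ψ.comp τ.toMonoidHom) = mult A η ψ := by
  unfold mult
  rw [co_comp (fun y : ↥A => η y) τ hτ]

attribute [local instance] irrFintype

theorem mult_le {η : G → ℂ} (hη : IsCharacter G η) (ξ : IrrCharacter G) [Fintype G]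
    (hξ : classInner η (ξ : G → ℂ) ≠ 0) (ψ : ↥A →* ℂˣ) : mult A (ξ : G → ℂ) ψ ≤ mult A η ψ := by
  letI := Fintype.ofFinite ↥A
  obtain ⟨n, hn⟩ := IsCharacter.exists_eq_sum hη
  have h1 : classInner η (ξ : G → ℂ) = n ξ := by
    conv_lhs => rw [hn]
    rw [classInner_sum_irr_left]
  have h2 : 1 ≤ n ξ := by
    rcases Nat.eq_zero_or_pos (n ξ) with h0 | h0
    · rw [h1, h0] at hξ
      exact absurd (by simp) hξ
    · exact h0
  have h3 : mult A η ψ = ∑ ζ : IrrCharacter G, n ζ * mult A (ζ : G → ℂ) ψ := by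
    have : (mult A η ψ : ℂ) = ((∑ ζ : IrrCharacter G, n ζ * mult A (ζ : G → ℂ) ψ : ℕ) : ℂ) := by
      rw [mult_spec hη]
      push_cast
      have e1 : ∀ ζ : IrrCharacter G, (mult A (ζ : G → ℂ) ψ : ℂ) = _ :=
        fun ζ => mult_spec (IsIrrCharacter.isCharacter ζ.2) ψ
      simp only [e1, co_eq]
      conv_lhs => rw [hn]
      simp only [Finset.sum_apply, Pi.smul_apply, smul_eq_mul, Finset.sum_mul]
      rw [Finset.sum_comm, Finset.mul_sum]
      apply Finset.sum_congr rfl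
      intro ζ _
      rw [mul_left_comm, Finset.mul_sum, Finset.mul_sum, Finset.mul_sum]
      apply Finset.sum_congr rfl
      intro y _
      ring
    exact_mod_cast this
  rw [h3]
  calc mult A (ξ : G → ℂ) ψ ≤ n ξ * mult A (ξ : G → ℂ) ψ := Nat.le_mul_of_pos_left _ h2
    _ ≤ _ := Finset.single_le_sum (f := fun ζ : IrrCharacter G => n ζ * mult A (ζ : G → ℂ) ψ)
      (fun _ _ => Nat.zero_le _) (Finset.mem_univ ξ)

end mult

end Cfsg.Agent.Lib.Helper2.BL
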