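import Mathlib
import Cfsg.Agent.Lib.Helper27.BSBig

/-!
# The two exceptional characters in the Brauer-Suzuki argument (order at least 16)

`exists_data_aux_strong` repeats helper27's `exists_data_aux`, keeping the extra property of `ξ`.
-/

set_option autoImplicit false
set_option linter.unusedSectionVars false

namespace Cfsg.Agent.Lib.Helper2.BSTwo

open Cfsg Cfsg.Agent.Lib.Helper2 Cfsg.Agent.Lib.Helper6 Cfsg.Agent.Lib.Helper27.BS Subgroup MonoidHom

section one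

variable {G : Type*} [Group G] [Finite G] {S : Sylow 2 G} {a b : G} {n : ℕ}

theorem exists_data_aux_strong {v t : G} (hn : 2 ≤ n) (ord : orderOf a = 2 ^ (n + 1))
    (inv : b⁻¹ * a * b = a⁻¹)
    (C0 : Subgroup G) (hC0 : C0 = centralizer ({v} : Set G)) (P0 : Sylow 2 C0)
    (hP0 : ∀ x : C0, x ∈ P0 ↔ (x : G) ∈ zpowers a)
    (v2 : v ^ 2 = t) (v2ne : v ^ 2 ≠ 1) (v4 : v ^ 4 = 1) (vb : b⁻¹ * v * b = v⁻¹)
    (hpv : ∀ {x : G}, Commute x v → ∀ {s : ℕ}, x ^ (2 ^ s) = 1 → x ^ 2 ≠ 1 → ∃ i : ℕ, x ^ i = v)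
    (hof : ∀ {u w : G}, u ^ 4 = 1 → u ^ 2 ≠ 1 → w ^ 4 = 1 → w ^ 2 ≠ 1 → Commute u w →
      u = w ∨ u = w⁻¹)
    (hci : ∀ {x y : G}, x * x = 1 → x ≠ 1 → y * y = 1 → y ≠ 1 → Commute x y → x = y)
    (haC : a ∈ C0) (hvz : v ∈ zpowers a) :
    ∃ ξ : C0 →* ℂˣ, Data C0 ξ b t ∧ ∀ g : C0, ξ g ≠ 1 → ∃ i : ℕ, (g : G) ^ i = v := by
  have hmem : ∀ x : G, x ∈ C0 ↔ x * v = v * x := fun x => by
    rw [hC0, mem_centralizer_singleton_iff]
  have hcomm : ∀ x : C0, (x : G) * v = v * (x : G) := fun x => (hmem _).1 x.2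
  have hvC : v ∈ C0 := (hmem _).2 rfl
  have hv1 : v ≠ 1 := by rintro rfl; exact v2ne (one_pow 2)
  -- the Sylow subgroup is cyclic, and `N(P0) ≤ C(P0)`
  have ha0 : (⟨a, haC⟩ : C0) ∈ P0 := (hP0 _).2 (mem_zpowers a)
  have hv0 : (⟨v, hvC⟩ : C0) ∈ P0 := (hP0 _).2 hvz
  have hcyc : IsCyclic (P0 : Subgroup C0) := by
    refine ⟨⟨⟨⟨a, haC⟩, ha0⟩, fun x => ?_⟩⟩
    obtain ⟨k, hk⟩ := mem_zpowers_iff.1 ((hP0 x.1).1 x.2)
    exact ⟨k, Subtype.ext (Subtype.ext (by simpa using hk))⟩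
  have hP : normalizer (P0 : Set C0) ≤ centralizer (P0 : Set C0) := by
    intro y hy
    rcases Cfsg.Agent.Lib.Helper22.cyclic_sylow_normalizer P0 hcyc y hy with h1 | ⟨-, h2⟩
    · exact h1
    · exfalso
      have := h2 ⟨v, hvC⟩ hv0 (Subtype.ext (by
        simp only [coe_mul, coe_inv]
        rw [hcomm y, mul_inv_cancel_right]))
      exact hv1 (congrArg Subtype.val this)
  set τ := transferSylow P0 hP with hτ
  set M := (P0 : Subgroup C0).index with hM
  have hModd : ¬ 2 ∣ M := P0.not_dvd_index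
  have hτa : (τ ⟨a, haC⟩) ^ 4 ≠ 1 := by
    intro h1
    rw [hτ, transferSylow_eq_pow P0 hP _ ha0] at h1
    have h2 : a ^ (M * 4) = 1 := by
      have := congrArg (fun z : P0 => ((z : C0) : G)) h1
      simpa [pow_mul] using this
    have h3 := orderOf_dvd_of_pow_eq_one h2
    rw [ord] at h3
    obtain ⟨k, rfl⟩ : ∃ k, n = k + 2 := ⟨n - 2, by omega⟩
    have h4 : (8 : ℕ) ∣ M * 4 := Dvd.dvd.trans ⟨2 ^ k, by ring⟩ h3
    omega
  obtain ⟨lam, hlam⟩ := exists_char_ne_one (sylow_comm P0 hP) hτa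
  set ξ : C0 →* ℂˣ := (powMonoidHom 2).comp (lam.comp τ) with hξ
  have ξ_apply : ∀ g, ξ g = lam ((τ g) ^ 2) := fun g => by
    rw [map_pow]; rfl
  -- (A1)
  have A1 : ∀ g : C0, ξ g ≠ 1 → ∃ i : ℕ, (g : G) ^ i = v := by
    intro g hg
    obtain ⟨c, hx⟩ := pow_index_conj_mem P0 g
    have h2 : (τ g) ^ 2 ≠ 1 := fun h => hg (by rw [ξ_apply, h, map_one])
    have h3 := transfer_pow_ne_one P0 hP g c hx 2 h2
    obtain ⟨k, hk⟩ := P0.2.exists_card_eq
    have h4 : (c * g ^ M * c⁻¹) ^ (2 ^ k) = 1 := by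
      have := pow_card_eq_one' (x := (⟨_, hx⟩ : (P0 : Subgroup C0)))
      rw [hk] at this
      exact congrArg Subtype.val this
    obtain ⟨i, hi⟩ := hpv (x := ((c * g ^ M * c⁻¹ : C0) : G)) (hcomm _)
      (s := k) (by exact_mod_cast congrArg Subtype.val h4)
      (fun h5 => h3 (Subtype.ext (by exact_mod_cast h5)))
    refine ⟨M * i, ?_⟩
    simp only [coe_mul, coe_inv, coe_pow] at hi
    rw [conj_pow, ← pow_mul] at hi
    have : (g : G) ^ (M * i) = (c : G)⁻¹ * ((c : G) * (g : G) ^ (M * i) * (c : G)⁻¹) * c := by group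
    rw [this, hi, mul_assoc, ← hcomm c, inv_mul_cancel_left]
  -- conjugation by `b`
  have vb' : b * v * b⁻¹ = v⁻¹ := by
    have : v = b * v⁻¹ * b⁻¹ := by rw [← vb]; group
    calc b * v * b⁻¹ = (b * v⁻¹ * b⁻¹)⁻¹ := by group
      _ = v⁻¹ := by rw [← this]
  have hbmem : ∀ x : G, x ∈ C0 → b⁻¹ * x * b ∈ C0 := by
    intro x hx
    rw [hmem] at hx ⊢
    have hx' : x * v⁻¹ = v⁻¹ * x := by
      have : Commute x v := hx
      exact this.inv_right.eq
    calc b⁻¹ * x * b * v = b⁻¹ * (x * (b * v * b⁻¹)) * b := by group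
      _ = b⁻¹ * ((b * v * b⁻¹) * x) * b := by rw [vb', hx']
      _ = v * (b⁻¹ * x * b) := by group
  let σ : C0 →* C0 :=
    { toFun := fun x => ⟨b⁻¹ * (x : G) * b, hbmem _ x.2⟩
      map_one' := Subtype.ext (by simp)
      map_mul' := fun x y => Subtype.ext (by simp only [coe_mul]; group) }
  have hσ : ∀ x ∈ P0, σ x = x⁻¹ := by
    intro x hx
    obtain ⟨k, hk⟩ := mem_zpowers_iff.1 ((hP0 x).1 hx)
    apply Subtype.ext
    show b⁻¹ * (x : G) * b = ((x⁻¹ : C0) : G)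
    rw [coe_inv, ← hk]
    have h1 := conj_zpow (a := b⁻¹) (b := a) (i := k)
    rw [inv_inv, inv] at h1
    rw [← h1, inv_zpow]
  have A2 : ∀ x : C0, ξ (σ x) = (ξ x)⁻¹ := by
    intro x
    rw [ξ_apply, ξ_apply, hτ, transfer_inv P0 hP σ hσ x, inv_pow, map_inv]
  have hbC : b ∉ C0 := by
    intro hb
    rw [hmem] at hb
    have h1 : b⁻¹ * v * b = v := by rw [mul_assoc, ← hb, inv_mul_cancel_left]
    rw [vb] at h1
    apply v2ne
    rw [pow_two]
    nth_rewrite 1 [← h1]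
    exact inv_mul_cancel v
  have t1 : t * t = 1 := by rw [← v2, ← pow_add]; exact v4
  have tne : t ≠ 1 := by rw [← v2]; exact v2ne
  refine ⟨ξ, ⟨hbC, fun x => ⟨hbmem _ x.2, A2 x⟩, ?_, ?_, ?_, ?_⟩, A1⟩
  · -- TI
    intro x y hm h1 h2
    obtain ⟨i, hi⟩ := A1 x h1
    obtain ⟨j, hj⟩ := A1 _ h2
    simp only [] at hj
    have hj' : (x : G) ^ j = y * v * y⁻¹ := by
      rw [← hj]
      have := conj_pow (a := y⁻¹) (b := (x : G)) (i := j)
      rw [inv_inv] at this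
      rw [this]; group
    have c4 : (y * v * y⁻¹) ^ 4 = 1 := by rw [conj_pow, v4]; group
    have c2 : (y * v * y⁻¹) ^ 2 ≠ 1 := by
      rw [conj_pow]
      intro h3
      apply v2ne
      have : v ^ 2 = y⁻¹ * (y * v ^ 2 * y⁻¹) * y := by group
      rw [this, h3]; group
    have hc : Commute (y * v * y⁻¹) v := by
      rw [← hj', ← hi]
      exact (Commute.refl (x : G)).pow_pow _ _
    rcases hof c4 c2 v4 v2ne hc with h3 | h3
    · left
      rw [hmem]
      calc y * v = (y * v * y⁻¹) * y := by group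
        _ = v * y := by rw [h3]
    · right
      rw [hmem]
      calc y * b⁻¹ * v = y * (b⁻¹ * v * b) * b⁻¹ := by group
        _ = (y * v * y⁻¹)⁻¹ * y * b⁻¹ := by rw [vb]; group
        _ = v * (y * b⁻¹) := by rw [h3]; group
  · -- squares
    refine ⟨⟨a, haC⟩, ?_⟩
    rw [ξ_apply, ← map_pow, ← pow_mul]
    exact hlam
  · -- vanishing at `t`
    intro y hm
    by_contra h1
    obtain ⟨i, hi⟩ := A1 _ h1
    simp only [] at hi
    apply v2ne
    rw [← hi, ← pow_mul, mul_comm, pow_mul]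
    have : (y⁻¹ * t * y) ^ 2 = 1 := by
      have h2 : (y⁻¹ * t * y) ^ 2 = y⁻¹ * (t * t) * y := by rw [pow_two]; group
      rw [h2, t1]; group
    rw [this, one_pow]
  · -- vanishing at products of two involutions
    intro x₁ x₂ hx₁ hx₂ y hm
    by_contra h1
    obtain ⟨i, hi⟩ := A1 _ h1
    simp only [] at hi
    obtain ⟨c₁, hc₁⟩ := isConj_iff.1 hx₁
    obtain ⟨c₂, hc₂⟩ := isConj_iff.1 hx₂
    set p := y⁻¹ * x₁ * y with hp
    set q := y⁻¹ * x₂ * y with hq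
    have hpq : y⁻¹ * (x₁ * x₂) * y = p * q := by rw [hp, hq]; group
    have pp : p * p = 1 := by
      have : p * p = (y⁻¹ * c₁) * (t * t) * (y⁻¹ * c₁)⁻¹ := by rw [hp, ← hc₁]; group
      rw [this, t1]; group
    have qq : q * q = 1 := by
      have : q * q = (y⁻¹ * c₂) * (t * t) * (y⁻¹ * c₂)⁻¹ := by rw [hq, ← hc₂]; group
      rw [this, t1]; group
    have pne : p ≠ 1 := by
      intro h2
      apply tne
      have : t = (y⁻¹ * c₁)⁻¹ * p * (y⁻¹ * c₁) := by rw [hp, ← hc₁]; group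
      rw [this, h2]; group
    have pinv : p⁻¹ = p := inv_eq_of_mul_eq_one_left pp
    have qinv : q⁻¹ = q := inv_eq_of_mul_eq_one_left qq
    rw [hpq] at hi
    clear_value p q
    have h2 : p * v * p⁻¹ = v⁻¹ := by
      rw [← hi, ← conj_pow, ← inv_pow]
      congr 1
      rw [mul_inv_rev, pinv, qinv, ← mul_assoc, pp, one_mul]
    have h3 : Commute p t := by
      show p * t = t * p
      rw [← v2]
      have : p * v ^ 2 * p⁻¹ = v ^ 2 := by
        rw [← conj_pow, h2, inv_pow]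
        apply inv_eq_of_mul_eq_one_left
        rw [← pow_add]; exact v4
      calc p * v ^ 2 = (p * v ^ 2 * p⁻¹) * p := by group
        _ = v ^ 2 * p := by rw [this]
    have h4 : p = t := hci pp pne t1 tne h3
    apply v2ne
    have h5 : p * v * p⁻¹ = v := by
      rw [h4, ← v2]; group
    rw [h2] at h5
    rw [pow_two]
    nth_rewrite 1 [← h5]
    exact inv_mul_cancel v

end one

section two

variable {G : Type*} [Group G] [Fintype G]

theorem core_two {C : Subgroup G} {ξ : C →* ℂˣ} {b t : G} (D : Data C ξ b t) :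
    ∃ χ₁ χ₂ : G → ℂ, IsIrrCharacter G χ₁ ∧ IsIrrCharacter G χ₂ ∧ χ₁ ≠ (fun _ => 1) ∧
      χ₂ ≠ (fun _ => 1) ∧ ∀ g, indFun C (th ξ) g = 1 + χ₂ g - χ₁ g := by
  classical
  have := finite_irr (G := G)
  cases nonempty_fintype (IrrCharacter G)
  choose m hm using fun ψ : IrrCharacter G => inner_int ξ ψ.2
  have hdec : indFun C (th ξ) = ∑ ψ : IrrCharacter G, ((m ψ : ℤ) : ℂ) • (ψ : G → ℂ) := by
    conv_lhs => rw [classFunction_eq_sum (indFun_isClassFunction C (th ξ))]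
    simp_rw [hm]
  let i0 : IrrCharacter G := ⟨fun _ => 1, isIrrCharacter_one⟩
  have h0 : m i0 = 1 := by
    have := hm i0
    rw [show ((i0 : IrrCharacter G) : G → ℂ) = fun _ => 1 from rfl, inner_one D] at this
    exact_mod_cast this.symm
  have hs : ∑ ψ, m ψ ^ 2 = 3 := by
    have h := inner_self D
    rw [hdec, classInner_sum_irr] at h
    have : ((∑ ψ, m ψ ^ 2 : ℤ) : ℂ) = 3 := by
      push_cast
      rw [← h]
      refine Finset.sum_congr rfl fun ψ _ => ?_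
      rw [map_intCast, pow_two]
    exact_mod_cast this
  obtain ⟨i1, i2, h10, h20, h12, c1, c2, hz⟩ := three_sq m i0 h0 hs
  have hfun : ∀ g, indFun C (th ξ) g =
      1 + (m i1 : ℂ) * (i1 : G → ℂ) g + (m i2 : ℂ) * (i2 : G → ℂ) g := by
    intro g
    rw [hdec, Finset.sum_apply]
    have m1 : i1 ∈ Finset.univ.erase i0 := Finset.mem_erase.mpr ⟨h10, Finset.mem_univ _⟩
    have m2 : i2 ∈ (Finset.univ.erase i0).erase i1 :=
      Finset.mem_erase.mpr ⟨h12.symm, Finset.mem_erase.mpr ⟨h20, Finset.mem_univ _⟩⟩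
    rw [← Finset.add_sum_erase _ _ (Finset.mem_univ i0), ← Finset.add_sum_erase _ _ m1,
      ← Finset.add_sum_erase _ _ m2, Finset.sum_eq_zero]
    · simp only [Pi.smul_apply, smul_eq_mul, h0, add_zero]
      simp only [i0]
      push_cast
      ring
    · intro i hi
      have hi2 := Finset.mem_erase.mp hi
      have hi1 := Finset.mem_erase.mp hi2.2
      have hi0 := Finset.mem_erase.mp hi1.2
      simp [hz i hi0.1 hi1.1 hi2.1]
  have E0 : indFun C (th ξ) 1 = 0 := ind_eq_zero ξ 1 (fun y hm => by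
    have : (⟨y⁻¹ * 1 * y, hm⟩ : C) = 1 := Subtype.ext (by simp)
    rw [this, map_one])
  rw [hfun] at E0
  have hd1 := irr_one_ne_zero i1.2
  have hd2 := irr_one_ne_zero i2.2
  obtain ⟨n1, hn1⟩ := IsCharacter.apply_one (IsIrrCharacter.isCharacter i1.2)
  obtain ⟨n2, hn2⟩ := IsCharacter.apply_one (IsIrrCharacter.isCharacter i2.2)
  have hne : ∀ i : IrrCharacter G, i ≠ i0 → (i : G → ℂ) ≠ fun _ => 1 :=
    fun i hi h => hi (Subtype.ext h)
  rcases c1 with c1 | c1 <;> rcases c2 with c2 | c2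
  · exfalso
    rw [c1, c2, hn1, hn2] at E0
    have : (1 + n1 + n2 : ℕ) = 0 := by
      have h : ((1 + n1 + n2 : ℕ) : ℂ) = 0 := by push_cast; linear_combination E0
      exact_mod_cast h
    omega
  · refine ⟨i2, i1, i2.2, i1.2, hne i2 h20, hne i1 h10, fun g => ?_⟩
    rw [hfun, c1, c2]
    push_cast
    ring
  · refine ⟨i1, i2, i1.2, i2.2, hne i1 h10, hne i2 h20, fun g => ?_⟩
    rw [hfun, c1, c2]
    push_cast
    ring
  · exfalso
    rw [c1, c2, hn1, hn2] at E0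
    have hn1' : n1 ≠ 0 := by rintro rfl; exact hd1 (by rw [hn1]; simp)
    have hn2' : n2 ≠ 0 := by rintro rfl; exact hd2 (by rw [hn2]; simp)
    have : (n1 + n2 : ℕ) = 1 := by
      have h : ((n1 + n2 : ℕ) : ℂ) = 1 := by push_cast at E0 ⊢; linear_combination -E0
      exact_mod_cast h
    omega

theorem exists_two_chars {S : Sylow 2 G} {a b : G} {n : ℕ} (h : QS (S : Subgroup G) a b n)
    (hn : 2 ≤ n) :
    ∃ χ₁ χ₂ : G → ℂ, IsIrrCharacter G χ₁ ∧ IsIrrCharacter G χ₂ ∧ χ₁ ≠ (fun _ => 1) ∧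
      χ₂ ≠ (fun _ => 1) ∧ χ₁ 1 = χ₂ 1 + 1 ∧ ∀ g : G, ¬ 4 ∣ orderOf g → χ₁ g - χ₂ g = 1 := by
  have hn1 : 1 ≤ n := by omega
  obtain ⟨P0, hP0⟩ := h.exists_sylow hn1
  obtain ⟨ξ, D, hA⟩ := exists_data_aux_strong (a := a) (b := b) (n := n) (v := a ^ (2 ^ (n - 1)))
    (t := a ^ (2 ^ n)) hn h.ord h.inv _ rfl P0 hP0
    (h.v_sq hn1) (h.v_sq_ne_one hn1) (h.v_pow_four hn1) (h.conj_pow _)
    (fun {x} hx {s} => h.pow_eq_v hn1 hx) (fun {u w} => h.order_four) (fun {x y} => h.comm_invol)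
    (by rw [mem_centralizer_singleton_iff]; exact ((Commute.refl a).pow_right _).eq)
    (pow_mem (mem_zpowers a) _)
  obtain ⟨χ₁, χ₂, h1, h2, h3, h4, h5⟩ := core_two D
  have hv4 : orderOf (a ^ (2 ^ (n - 1))) = 4 := by
    have := orderOf_eq_prime_pow (p := 2) (n := 1) (x := a ^ (2 ^ (n - 1)))
      (by simpa using h.v_sq_ne_one hn1) (by simpa using h.v_pow_four hn1)
    simpa using this
  have key : ∀ g : G, ¬ 4 ∣ orderOf g → indFun _ (th ξ) g = 0 := by
    intro g hg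
    apply ind_eq_zero
    intro y hm
    by_contra hne
    obtain ⟨i, hi⟩ := hA _ hne
    apply hg
    have e1 : orderOf (y⁻¹ * g * y) = orderOf g := by
      have := orderOf_conj_eq y⁻¹ g
      rwa [inv_inv] at this
    rw [← e1, ← hv4, ← hi]
    exact orderOf_pow_dvd i
  refine ⟨χ₁, χ₂, h1, h2, h3, h4, ?_, ?_⟩
  · have := key 1 (by simp)
    rw [h5] at this
    linear_combination -this
  · intro g hg
    have := key g hg
    rw [h5] at this
    linear_combination -this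

end two

end Cfsg.Agent.Lib.Helper2.BSTwo
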