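import Mathlib
import Cfsg.Prelude.Def_Characters
import Cfsg.Agent.Lib.Helper2.GalChar
import Cfsg.Agent.Lib.Helper2.Kernel
import Cfsg.Agent.Lib.Helper2.Integral

/-! Blichfeldt's theorem, part 1: Galois twists of characters of small degree. -/

set_option autoImplicit false

namespace Cfsg.Agent.Lib.Helper2.Blich

open Module Cfsg.Agent.Lib.Helper2
open scoped ComplexConjugate

theorem sum_pow_root {p : ℕ} (hp : p.Prime) {z : ℂ} (hz : z ^ p = 1) :
    ∑ k ∈ Finset.Ico 1 p, z ^ k = if z = 1 then ((p : ℂ) - 1) else -1 := by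
  have h1 : ∑ k ∈ Finset.range p, z ^ k = 1 + ∑ k ∈ Finset.Ico 1 p, z ^ k := by
    rw [Finset.range_eq_Ico, Finset.sum_eq_sum_Ico_succ_bot hp.pos, pow_zero]
  by_cases h : z = 1
  · rw [if_pos h]
    rw [h] at h1
    simp only [one_pow, Finset.sum_const, Finset.card_range, nsmul_eq_mul, mul_one] at h1
    rw [h]
    simp only [one_pow, Finset.sum_const, nsmul_eq_mul, mul_one]
    linear_combination -h1
  · rw [if_neg h]
    have h2 := geom_sum_mul z p
    rw [hz, sub_self] at h2
    have h3 : ∑ k ∈ Finset.range p, z ^ k = 0 := by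
      rcases mul_eq_zero.mp h2 with h4 | h4
      · exact h4
      · exact absurd (sub_eq_zero.mp h4) h
    linear_combination h3 - h1

theorem exists_pow_trace_ne {V : Type*} [AddCommGroup V] [Module ℂ V] [FiniteDimensional ℂ V]
    (f : Module.End ℂ V) {p : ℕ} (hp : p.Prime) (hf : f ^ p = 1) (hne : f ≠ 1)
    (hd : finrank ℂ V + 1 < p) :
    ∃ k ∈ Finset.Ico 1 p, LinearMap.trace ℂ V (f ^ k) ≠ LinearMap.trace ℂ V f := by
  classical
  obtain ⟨b, ζ, hζ, hb⟩ := exists_eigenbasis f p hp.pos hf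
  have hpow : ∀ (k : ℕ) i, (f ^ k) (b i) = (ζ i ^ k) • b i := by
    intro k i
    induction k with
    | zero => simp
    | succ k ih =>
      rw [pow_succ, Module.End.mul_apply, hb, map_smul, ih, smul_smul, pow_succ, mul_comm]
  have htr : ∀ k : ℕ, LinearMap.trace ℂ V (f ^ k) = ∑ i, ζ i ^ k := fun k =>
    trace_eq_sum_of_eigenbasis (f ^ k) b (fun i => ζ i ^ k) (hpow k)
  by_contra hcon
  push Not at hcon
  set v := LinearMap.trace ℂ V f with hv
  have hv1 : v = ∑ i, ζ i := by
    have := htr 1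
    simpa using this
  set e : ℕ := (Finset.univ.filter (fun i => ζ i ≠ 1)).card with he
  have hsum1 : ∑ k ∈ Finset.Ico 1 p, LinearMap.trace ℂ V (f ^ k) = ((p : ℂ) - 1) * v := by
    rw [Finset.sum_congr rfl hcon]
    simp only [Finset.sum_const, Nat.card_Ico, nsmul_eq_mul]
    rw [Nat.cast_sub hp.one_lt.le, Nat.cast_one]
  have hsum2 : ∑ k ∈ Finset.Ico 1 p, LinearMap.trace ℂ V (f ^ k) =
      ((p : ℂ) - 1) * (finrank ℂ V : ℂ) - (p : ℂ) * (e : ℂ) := by
    simp only [htr]
    rw [Finset.sum_comm]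
    simp only [sum_pow_root hp (hζ _)]
    have h1 : ∀ i, (if ζ i = 1 then ((p : ℂ) - 1) else -1) =
        ((p : ℂ) - 1) - (if ζ i ≠ 1 then (p : ℂ) else 0) := by
      intro i
      by_cases h : ζ i = 1
      · simp [h]
      · simp [h]
    simp only [h1]
    rw [Finset.sum_sub_distrib, ← Finset.sum_filter]
    simp only [Finset.sum_const, Finset.card_univ, Fintype.card_fin, nsmul_eq_mul]
    rw [← he]
    ring
  have hp1 : ((p : ℂ) - 1) ≠ 0 := by
    intro h
    have h2 : (p : ℂ) = 1 := by linear_combination h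
    have h3 : p = 1 := by exact_mod_cast h2
    exact hp.one_lt.ne' h3
  have hint : IsIntegral ℤ v := by
    rw [hv1]
    apply IsIntegral.sum
    intro i _
    exact IsIntegral.of_pow hp.pos (by rw [hζ i]; exact isIntegral_one)
  have hdiv : ((e : ℕ) : ℂ) / ((p - 1 : ℕ) : ℂ) = (finrank ℂ V : ℂ) - (e : ℂ) - v := by
    rw [Nat.cast_sub hp.one_lt.le, Nat.cast_one, div_eq_iff hp1]
    linear_combination hsum2 - hsum1
  have hint2 : IsIntegral ℤ (((e : ℕ) : ℂ) / ((p - 1 : ℕ) : ℂ)) := by
    rw [hdiv]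
    have hnat : ∀ n : ℕ, IsIntegral ℤ (n : ℂ) := fun n => by
      have := isIntegral_algebraMap (R := ℤ) (A := ℂ) (x := (n : ℤ))
      simpa using this
    exact ((hnat _).sub (hnat _)).sub hint
  have hdvd : (p - 1) ∣ e := dvd_of_isIntegral_div (by have := hp.one_lt; omega) hint2
  have hele : e ≤ finrank ℂ V := by
    rw [he]
    calc (Finset.univ.filter (fun i => ζ i ≠ 1)).card ≤ (Finset.univ : Finset (Fin (finrank ℂ V))).card :=
          Finset.card_filter_le _ _
      _ = finrank ℂ V := by simp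
  have he0 : e = 0 := by
    by_contra h0
    have := Nat.le_of_dvd (Nat.pos_of_ne_zero h0) hdvd
    omega
  apply hne
  apply b.ext
  intro i
  rw [hb]
  have hi : ζ i = 1 := by
    by_contra h
    have : i ∈ Finset.univ.filter (fun i => ζ i ≠ 1) := Finset.mem_filter.mpr ⟨Finset.mem_univ _, h⟩
    rw [he, Finset.card_eq_zero] at he0
    rw [he0] at this
    exact absurd this (Finset.notMem_empty _)
  rw [hi, one_smul]
  rfl

end Cfsg.Agent.Lib.Helper2.Blich
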