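import Mathlib
import Cfsg.Prelude.Def_Characters
import Cfsg.Agent.Lib.Helper2.Blich1
import Cfsg.Agent.Lib.Helper2.Complete

/-! Blichfeldt's theorem, part 2: elements with nontrivial `p`- and `q`-parts. -/

set_option autoImplicit false

namespace Cfsg.Agent.Lib.Helper2.Blich

open Module Cfsg.Agent.Lib.Helper2
open scoped ComplexConjugate

theorem exists_k {G : Type*} [Group G] {V : Type*} [AddCommGroup V] [Module ℂ V]
    [FiniteDimensional ℂ V] (ρ : Representation ℂ G V) {p : ℕ} (hp : p.Prime)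
    (hd : finrank ℂ V + 1 < p) (a : G) (s : ℕ) (ha : a ^ (p ^ s) = 1) (hne : ρ a ≠ 1)
    (m : ℕ) (hm : Nat.Coprime m p) :
    ∃ k : ℕ, k ≡ 1 [MOD m] ∧ ¬ p ∣ k ∧ ∃ a' : G, ρ.character (a' ^ k) ≠ ρ.character a' := by
  classical
  have hex : ∃ t : ℕ, ρ (a ^ (p ^ t)) = 1 := ⟨s, by rw [ha, map_one]⟩
  set t0 := Nat.find hex with ht0
  have h1 : ρ (a ^ (p ^ t0)) = 1 := Nat.find_spec hex
  have h2 : t0 ≠ 0 := by
    intro h0
    rw [h0, pow_zero, pow_one] at h1
    exact hne h1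
  obtain ⟨t1, ht1⟩ := Nat.exists_eq_succ_of_ne_zero h2
  have h3 : ρ (a ^ (p ^ t1)) ≠ 1 := Nat.find_min hex (by rw [← ht0, ht1]; exact Nat.lt_succ_self _)
  set a' := a ^ (p ^ t1) with ha'
  have h4 : (ρ a') ^ p = 1 := by
    rw [← map_pow, ha', ← pow_mul, ← pow_succ, ← Nat.succ_eq_add_one, ← ht1, h1]
  obtain ⟨k0, hk0, hk0'⟩ := exists_pow_trace_ne (ρ a') hp h4 h3 hd
  rw [Finset.mem_Ico] at hk0
  obtain ⟨k, hk1, hk2⟩ := Nat.chineseRemainder hm 1 k0
  refine ⟨k, hk1, ?_, a', ?_⟩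
  · intro hdvd
    have h5 : k0 % p = 0 := by
      have : k % p = k0 % p := hk2
      rw [← this]
      exact Nat.mod_eq_zero_of_dvd hdvd
    rw [Nat.mod_eq_of_lt hk0.2] at h5
    omega
  · unfold Representation.character
    rw [map_pow]
    have h6 : (ρ a') ^ k = (ρ a') ^ k0 := by
      have h7 : k % p = k0 := by
        have : k % p = k0 % p := hk2
        rw [this, Nat.mod_eq_of_lt hk0.2]
      conv_lhs => rw [← Nat.mod_add_div k p]
      rw [pow_add, pow_mul, h4, one_pow, mul_one, h7]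
    rw [h6]
    exact hk0'

theorem coprime_of {p k m v : ℕ} (hp : p.Prime) (h1 : k ≡ 1 [MOD m]) (h2 : ¬ p ∣ k) :
    Nat.Coprime k (p ^ v * m) := by
  apply Nat.Coprime.mul_right
  · exact Nat.Coprime.pow_right _ ((Nat.Prime.coprime_iff_not_dvd hp).mpr h2).symm
  · have := h1.gcd_eq
    rw [Nat.gcd_one_left] at this
    exact this

theorem rho_pow_eq {G : Type*} [Group G] {V : Type*} [AddCommGroup V] [Module ℂ V]
    (ρ : Representation ℂ G V) {k m : ℕ} (hk : k ≡ 1 [MOD m]) (hk0 : k ≠ 0) (h : G)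
    (hh : ρ (h ^ m) = 1) : ρ (h ^ k) = ρ h := by
  have h1 : m ∣ k - 1 := (Nat.modEq_iff_dvd' (by omega)).mp hk.symm
  obtain ⟨u, hu⟩ := h1
  have h2 : k = 1 + m * u := by omega
  rw [h2, pow_add, pow_one, pow_mul, map_mul, map_pow, hh, one_pow, mul_one]

theorem exists_elt {G : Type*} [Group G] [Finite G] {ψ : G → ℂ} (hψ : Cfsg.IsIrrCharacter G ψ)
    {p q : ℕ} (hp : p.Prime) (hq : q.Prime) (d : ℕ) (hd : ψ 1 = d)
    (hdp : d + 1 < p) (hdq : d + 1 < q) (a b : G) (s t : ℕ) (ha : a ^ (p ^ s) = 1)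
    (hb : b ^ (q ^ t) = 1) (hane : ψ a ≠ ψ 1) (hbne : ψ b ≠ ψ 1) (mp mq vp vq : ℕ)
    (hNp : Nat.card G = p ^ vp * mp) (hcp : Nat.Coprime mp p)
    (hNq : Nat.card G = q ^ vq * mq) (hcq : Nat.Coprime mq q) :
    ∃ g : G, ψ (g ^ mp) ≠ ψ 1 ∧ ψ (g ^ mq) ≠ ψ 1 := by
  classical
  letI := Fintype.ofFinite G
  have hψ0 := hψ
  obtain ⟨d', ρ, hirr, rfl⟩ := hψ
  have hfr : finrank ℂ (Fin d' → ℂ) = d := by
    have := Representation.char_one ρ
    rw [hd] at this
    exact_mod_cast this.symm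
  have hker : ∀ g : G, ρ.character g = ρ.character 1 ↔ ρ g = 1 := by
    intro g
    rw [Representation.char_one]
    exact char_eq_finrank_iff ρ g
  have ha1 : ρ a ≠ 1 := fun h => hane ((hker a).mpr h)
  have hb1 : ρ b ≠ 1 := fun h => hbne ((hker b).mpr h)
  obtain ⟨k, hk1, hk2, a', hk3⟩ := exists_k ρ hp (by rw [hfr]; exact hdp) a s ha ha1 mp hcp
  obtain ⟨l, hl1, hl2, b', hl3⟩ := exists_k ρ hq (by rw [hfr]; exact hdq) b t hb hb1 mq hcq
  have hkN : Nat.Coprime k (Nat.card G) := by rw [hNp]; exact coprime_of hp hk1 hk2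
  have hlN : Nat.Coprime l (Nat.card G) := by rw [hNq]; exact coprime_of hq hl1 hl2
  have hklN : Nat.Coprime (k * l) (Nat.card G) := Nat.Coprime.mul_left hkN hlN
  have hk0 : k ≠ 0 := fun h => hk2 (h ▸ dvd_zero p)
  have hl0 : l ≠ 0 := fun h => hl2 (h ▸ dvd_zero q)
  have i1 := GalChar.isIrrCharacter_pow hψ0 k hkN
  have i2 := GalChar.isIrrCharacter_pow hψ0 l hlN
  have i3 := GalChar.isIrrCharacter_pow hψ0 (k * l) hklN
  by_contra hcon
  push Not at hcon
  have hid : ρ.character + (fun g => ρ.character (g ^ (k * l))) =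
      (fun g => ρ.character (g ^ k)) + (fun g => ρ.character (g ^ l)) := by
    funext g
    simp only [Pi.add_apply]
    unfold Representation.character
    by_cases h1 : ρ.character (g ^ mp) = ρ.character 1
    · have h2 : ρ (g ^ mp) = 1 := (hker _).mp h1
      have h3 : ρ (g ^ k) = ρ g := rho_pow_eq ρ hk1 hk0 g h2
      have h4 : ρ (g ^ (k * l)) = ρ (g ^ l) := by
        rw [mul_comm, pow_mul]
        apply rho_pow_eq ρ hk1 hk0
        rw [← pow_mul, mul_comm, pow_mul, map_pow, h2, one_pow]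
      rw [h3, h4]
    · have h2 : ρ (g ^ mq) = 1 := (hker _).mp (hcon g h1)
      have h3 : ρ (g ^ l) = ρ g := rho_pow_eq ρ hl1 hl0 g h2
      have h4 : ρ (g ^ (k * l)) = ρ (g ^ k) := by
        rw [pow_mul]
        apply rho_pow_eq ρ hl1 hl0
        rw [← pow_mul, mul_comm, pow_mul, map_pow, h2, one_pow]
      rw [h3, h4, add_comm]
  have hin := congrArg (fun f => Cfsg.classInner f ρ.character) hid
  simp only [classInner_add_left] at hin
  rw [classInner_irr hψ0 hψ0, if_pos rfl, classInner_irr i1 hψ0, classInner_irr i2 hψ0,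
    classInner_irr i3 hψ0] at hin
  have n1 : (fun g => ρ.character (g ^ k)) ≠ ρ.character := fun h => hk3 (congrFun h a')
  have n2 : (fun g => ρ.character (g ^ l)) ≠ ρ.character := fun h => hl3 (congrFun h b')
  rw [if_neg n1, if_neg n2] at hin
  split_ifs at hin
  · norm_num at hin
  · norm_num at hin

end Cfsg.Agent.Lib.Helper2.Blich
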