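import Mathlib
import Cfsg.Prelude.Def_Characters
import Cfsg.Agent.Lib.Helper2.Blich2
import Cfsg.Agent.Lib.Helper2.Schur

/-! Blichfeldt's theorem, part 3: determinant twist and the key lemma. -/

set_option autoImplicit false

namespace Cfsg.Agent.Lib.Helper2.Blich

open Module Cfsg.Agent.Lib.Helper2
open scoped ComplexConjugate

theorem norm_hom_apply {G : Type*} [Group G] [Finite G] (mu : G →* ℂˣ) (g : G) :
    ‖((mu g : ℂˣ) : ℂ)‖ = 1 := by
  have h3 : ((mu g : ℂˣ) : ℂ) ^ orderOf g = 1 := by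
    rw [← Units.val_pow_eq_pow_val, ← map_pow, pow_orderOf_eq_one, map_one, Units.val_one]
  exact Complex.norm_eq_one_of_pow_eq_one h3 (orderOf_pos g).ne'

theorem exists_twist {G : Type*} [Group G] [Finite G] {d : ℕ}
    (ρ : Representation ℂ G (Fin d → ℂ)) (hirr : ρ.IsIrreducible) (r : ℕ)
    (hr : Nat.Coprime d r) :
    ∃ ψ' : G → ℂ, Cfsg.IsIrrCharacter G ψ' ∧ ψ' 1 = d ∧
      (∀ z : G, (∃ ω : ℂ, ρ z = ω • (LinearMap.id : (Fin d → ℂ) →ₗ[ℂ] (Fin d → ℂ))) →
        z ^ r = 1 → ψ' z = ψ' 1) ∧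
      (∀ a : G, (¬ ∃ ω : ℂ, ρ a = ω • (LinearMap.id : (Fin d → ℂ) →ₗ[ℂ] (Fin d → ℂ))) →
        ψ' a ≠ ψ' 1) := by
  classical
  letI := Fintype.ofFinite G
  have hfr : finrank ℂ (Fin d → ℂ) = d := by simp
  have hd0 : d ≠ 0 := by
    have := finrank_pos_of_isIrreducible ρ
    rw [hfr] at this
    exact this.ne'
  have hdC : (d : ℂ) ≠ 0 := by exact_mod_cast hd0
  let lam : G →* ℂˣ := (LinearMap.det.comp ρ).toHomUnits
  have hlam : ∀ g, ((lam g : ℂˣ) : ℂ) = LinearMap.det (ρ g) := fun g => rfl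
  set x : ℤ := Nat.gcdA d r with hx
  set y : ℤ := Nat.gcdB d r with hy
  have hbez : (1 : ℤ) = d * x + r * y := by
    have := Nat.gcd_eq_gcd_ab d r
    rw [hr] at this
    exact_mod_cast this
  let mu : G →* ℂˣ := lam ^ (-x)
  have hmu : ∀ g, ((mu g : ℂˣ) : ℂ) = (LinearMap.det (ρ g)) ^ (-x) := by
    intro g
    have : mu g = (lam g) ^ (-x) := rfl
    rw [this, Units.val_zpow_eq_zpow_val, hlam]
  have hψirr : Cfsg.IsIrrCharacter G ρ.character := ⟨d, ρ, hirr, rfl⟩
  set ψ' : G → ℂ := (fun g => ((mu g : ℂˣ) : ℂ)) * ρ.character with hψ'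
  have hval : ∀ g, ψ' g = ((mu g : ℂˣ) : ℂ) * ρ.character g := fun g => rfl
  have h1 : ψ' 1 = d := by
    rw [hval, map_one, Units.val_one, one_mul, Representation.char_one, hfr]
  refine ⟨ψ', ?_, h1, ?_, ?_⟩
  · apply isIrrCharacter_of_classInner_eq_one
    · exact IsCharacter.mul (IsIrrCharacter.isCharacter (isIrrCharacter_of_hom mu))
        (IsIrrCharacter.isCharacter hψirr)
    · have h2 : Cfsg.classInner ρ.character ρ.character = 1 := by
        rw [classInner_irr hψirr hψirr, if_pos rfl]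
      rw [← h2]
      unfold Cfsg.classInner
      congr 1
      apply Finset.sum_congr rfl
      intro g _
      rw [hval, map_mul]
      have h3 : ((mu g : ℂˣ) : ℂ) * conj ((mu g : ℂˣ) : ℂ) = 1 := by
        rw [Complex.mul_conj, Complex.normSq_eq_norm_sq, norm_hom_apply]
        simp
      linear_combination (ρ.character g * conj (ρ.character g)) * h3
  · rintro z ⟨ω, hω⟩ hz
    rw [h1, hval, hmu, hω]
    have hωr : ω ^ r = 1 := by
      have h2 : ρ (z ^ r) = 1 := by rw [hz, map_one]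
      rw [map_pow, hω, smul_pow] at h2
      have h3 := congrArg (LinearMap.trace ℂ (Fin d → ℂ)) h2
      have h4 : (LinearMap.id : (Fin d → ℂ) →ₗ[ℂ] (Fin d → ℂ)) ^ r = 1 := one_pow r
      rw [h4, map_smul, LinearMap.trace_one, hfr, smul_eq_mul] at h3
      exact mul_right_cancel₀ hdC (by rw [h3, one_mul])
    have hω0 : ω ≠ 0 := by
      intro h0
      rw [h0] at hωr
      rcases Nat.eq_zero_or_pos r with hr0 | hr0
      · rw [hr0, Nat.coprime_zero_right] at hr
        -- d = 1, r = 0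
        rw [hr0] at hz
        have h2 : ρ z = 0 := by rw [hω, h0, zero_smul]
        have h3 : ρ z * ρ z⁻¹ = 1 := by rw [← map_mul, mul_inv_cancel, map_one]
        rw [h2, zero_mul] at h3
        have h4 := congrArg (LinearMap.trace ℂ (Fin d → ℂ)) h3
        rw [map_zero, LinearMap.trace_one, hfr] at h4
        exact hdC h4.symm
      · rw [zero_pow hr0.ne'] at hωr
        exact zero_ne_one hωr
    have hdet : LinearMap.det (ω • (LinearMap.id : (Fin d → ℂ) →ₗ[ℂ] (Fin d → ℂ))) = ω ^ d := by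
      rw [LinearMap.det_smul, hfr, LinearMap.det_id, mul_one]
    have htr : Representation.character ρ z = ω * d := by
      unfold Representation.character
      rw [hω, map_smul, LinearMap.trace_id, hfr, smul_eq_mul]
    rw [hdet, htr]
    have h5 : (ω ^ d) ^ (-x) * ω = 1 := by
      rw [← zpow_natCast ω d, ← zpow_mul, ← zpow_add_one₀ hω0]
      have h6 : (d : ℤ) * -x + 1 = r * y := by linarith
      rw [h6, zpow_mul, zpow_natCast, hωr, one_zpow]
    linear_combination (d : ℂ) * h5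
  · intro a ha hcon
    apply ha
    rw [← norm_char_eq_iff ρ a, hfr]
    have h2 : ‖ψ' a‖ = d := by rw [hcon, h1]; simp
    rw [hval, norm_mul, norm_hom_apply, one_mul] at h2
    exact h2

end Cfsg.Agent.Lib.Helper2.Blich
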