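import Mathlib
import Cfsg.Prelude.Def_Characters
import Cfsg.Agent.Lib.Helper2.Blich3

/-! Blichfeldt's theorem, part 4: the key lemma on commuting noncentral elements. -/

set_option autoImplicit false

namespace Cfsg.Agent.Lib.Helper2.Blich

open Module Cfsg.Agent.Lib.Helper2
open scoped ComplexConjugate

theorem key {G : Type*} [Group G] [Finite G] {χ : G → ℂ} (hχ : Cfsg.IsCharacter G χ)
    (hfaith : ∀ g : G, χ g = χ 1 → g = 1) (n : ℕ) (hn : χ 1 = n) {p q : ℕ} (hp : p.Prime)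
    (hq : q.Prime) (hnp : n + 1 < p) (hnq : n + 1 < q) (a b : G) (s t : ℕ)
    (ha : a ^ (p ^ s) = 1) (hb : b ^ (q ^ t) = 1) (hab : a * b ≠ b * a) :
    ∃ x y : G, x * y = y * x ∧ (∃ s, x ^ (p ^ s) = 1) ∧ (∃ t, y ^ (q ^ t) = 1) ∧
      x ∉ Subgroup.center G ∧ y ∉ Subgroup.center G := by
  classical
  letI := Fintype.ofFinite G
  haveI := finite_irr (G := G)
  letI := Fintype.ofFinite (Cfsg.IrrCharacter G)
  obtain ⟨m, hm⟩ := IsCharacter.exists_eq_sum hχ
  have hval : ∀ g, χ g = ∑ φ : Cfsg.IrrCharacter G, (m φ : ℂ) * (φ : G → ℂ) g := by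
    intro g
    rw [hm]
    simp [Finset.sum_apply]
  set c : G := (a * b) * (b * a)⁻¹ with hc
  have hc1 : c ≠ 1 := by
    intro h
    exact hab (mul_inv_eq_one.mp h)
  have hχc : χ c ≠ χ 1 := fun h => hc1 (hfaith c h)
  obtain ⟨ψ, hmψ, hψc⟩ : ∃ ψ : Cfsg.IrrCharacter G, m ψ ≠ 0 ∧ (ψ : G → ℂ) c ≠ (ψ : G → ℂ) 1 := by
    by_contra hcon
    push Not at hcon
    apply hχc
    rw [hval, hval]
    apply Finset.sum_congr rfl
    intro φ _
    by_cases h0 : m φ = 0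
    · rw [h0]; simp
    · rw [hcon φ h0]
  choose deg hdeg using fun φ : Cfsg.IrrCharacter G =>
    IsCharacter.apply_one (IsIrrCharacter.isCharacter φ.2)
  have hnsum : n = ∑ φ : Cfsg.IrrCharacter G, m φ * deg φ := by
    have h1 := hval 1
    rw [hn] at h1
    simp only [hdeg] at h1
    exact_mod_cast h1
  have hdle : deg ψ ≤ n := by
    rw [hnsum]
    calc deg ψ ≤ m ψ * deg ψ := Nat.le_mul_of_pos_left _ (Nat.pos_of_ne_zero hmψ)
      _ ≤ ∑ φ : Cfsg.IrrCharacter G, m φ * deg φ :=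
          Finset.single_le_sum (f := fun φ => m φ * deg φ) (fun _ _ => Nat.zero_le _)
            (Finset.mem_univ ψ)
  obtain ⟨d, ρ, hirr, hρ⟩ := ψ.2
  have hfr : finrank ℂ (Fin d → ℂ) = d := by simp
  have hdd : d = deg ψ := by
    have h1 := hdeg ψ
    rw [← hρ, Representation.char_one, hfr] at h1
    exact_mod_cast h1
  have hd0 : 0 < d := by
    have := finrank_pos_of_isIrreducible ρ
    rwa [hfr] at this
  have hdn : d ≤ n := hdd ▸ hdle
  set N := Nat.card G with hN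
  have hN0 : N ≠ 0 := Nat.card_pos.ne'
  set vp := N.factorization p with hvp
  set vq := N.factorization q with hvq
  set mp := N / p ^ vp with hmp
  set mq := N / q ^ vq with hmq
  have hNp : N = p ^ vp * mp := (Nat.ordProj_mul_ordCompl_eq_self N p).symm
  have hNq : N = q ^ vq * mq := (Nat.ordProj_mul_ordCompl_eq_self N q).symm
  have hcp : Nat.Coprime mp p := (Nat.coprime_ordCompl hp hN0).symm
  have hcq : Nat.Coprime mq q := (Nat.coprime_ordCompl hq hN0).symm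
  have hdp : Nat.Coprime d p :=
    ((Nat.Prime.coprime_iff_not_dvd hp).mpr (Nat.not_dvd_of_pos_of_lt hd0 (by omega))).symm
  have hdq : Nat.Coprime d q :=
    ((Nat.Prime.coprime_iff_not_dvd hq).mpr (Nat.not_dvd_of_pos_of_lt hd0 (by omega))).symm
  have hr : Nat.Coprime d (p ^ vp * q ^ vq) :=
    Nat.Coprime.mul_right (Nat.Coprime.pow_right _ hdp) (Nat.Coprime.pow_right _ hdq)
  obtain ⟨ψ', hψ'irr, hψ'1, hψ'z, hψ'a⟩ := exists_twist ρ hirr (p ^ vp * q ^ vq) hr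
  have hρc : ρ c ≠ 1 := by
    intro h
    apply hψc
    rw [← hρ]
    unfold Representation.character
    rw [h, map_one ρ]
  have hnotscalar : ∀ u v : G, c = (u * v) * (v * u)⁻¹ ∨ c = (v * u) * (u * v)⁻¹ →
      ¬ ∃ ω : ℂ, ρ u = ω • (LinearMap.id : (Fin d → ℂ) →ₗ[ℂ] (Fin d → ℂ)) := by
    rintro u v huv ⟨ω, hω⟩
    apply hρc
    have h1 : ρ (u * v) = ρ (v * u) := by
      rw [map_mul, map_mul, hω, smul_mul_assoc, mul_smul_comm]
      congr 1
    rcases huv with h | h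
    · rw [h, map_mul, h1, ← map_mul, mul_inv_cancel, map_one]
    · rw [h, map_mul, ← h1, ← map_mul, mul_inv_cancel, map_one]
  have hane : ψ' a ≠ ψ' 1 := hψ'a a (hnotscalar a b (Or.inl rfl))
  have hbne : ψ' b ≠ ψ' 1 := hψ'a b (hnotscalar b a (Or.inr rfl))
  obtain ⟨g, hg1, hg2⟩ := exists_elt hψ'irr hp hq d hψ'1 (by omega) (by omega) a b s t ha hb
    hane hbne mp mq vp vq hNp hcp hNq hcq
  have hgN : g ^ N = 1 := pow_card_eq_one'
  have hx1 : (g ^ mp) ^ (p ^ vp) = 1 := by rw [← pow_mul, mul_comm, ← hNp, hgN]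
  have hy1 : (g ^ mq) ^ (q ^ vq) = 1 := by rw [← pow_mul, mul_comm, ← hNq, hgN]
  have hcentral : ∀ z : G, z ∈ Subgroup.center G →
      ∃ ω : ℂ, ρ z = ω • (LinearMap.id : (Fin d → ℂ) →ₗ[ℂ] (Fin d → ℂ)) := by
    intro z hz
    haveI := hirr
    refine ⟨_, schur_scalar ρ (ρ z) (fun h => ?_)⟩
    have h1 : z * h = h * z := ((Subgroup.mem_center_iff.mp hz) h).symm
    have h2 : ρ z * ρ h = ρ h * ρ z := by rw [← map_mul, ← map_mul, h1]
    exact h2
  refine ⟨g ^ mp, g ^ mq, ((Commute.refl g).pow_pow mp mq).eq, ⟨vp, hx1⟩, ⟨vq, hy1⟩, ?_, ?_⟩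
  · intro hz
    apply hg1
    apply hψ'z _ (hcentral _ hz)
    rw [pow_mul, hx1, one_pow]
  · intro hz
    apply hg2
    apply hψ'z _ (hcentral _ hz)
    rw [mul_comm, pow_mul, hy1, one_pow]

end Cfsg.Agent.Lib.Helper2.Blich
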