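import Mathlib
import Cfsg.Prelude.Def_Characters
import Cfsg.Agent.Lib.Helper2.Blich4
import Cfsg.Agent.Lib.Helper2.Linear
import Cfsg.Agent.S0135

/-! Blichfeldt's theorem, part 5: group-theoretic lemmas. -/

set_option autoImplicit false

namespace Cfsg.Agent.Lib.Helper2.Blich

open Module Cfsg.Agent.Lib.Helper2
open scoped ComplexConjugate

/-- If all irreducible constituents of a faithful character are linear, the group is abelian. -/
theorem abelian_of_pgroup {P : Type*} [Group P] [Finite P] {p : ℕ} (hp : p.Prime)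
    (hP : IsPGroup p P) {χ : P → ℂ} (hχ : Cfsg.IsCharacter P χ)
    (hfaith : ∀ g : P, χ g = χ 1 → g = 1) (n : ℕ) (hn : χ 1 = n) (hnp : n < p) :
    ∀ a b : P, a * b = b * a := by
  classical
  letI := Fintype.ofFinite P
  haveI := finite_irr (G := P)
  letI := Fintype.ofFinite (Cfsg.IrrCharacter P)
  obtain ⟨m, hm⟩ := IsCharacter.exists_eq_sum hχ
  have hval : ∀ g, χ g = ∑ φ : Cfsg.IrrCharacter P, (m φ : ℂ) * (φ : P → ℂ) g := by
    intro g
    rw [hm]
    simp [Finset.sum_apply]
  choose deg hdeg using fun φ : Cfsg.IrrCharacter P =>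
    IsCharacter.apply_one (IsIrrCharacter.isCharacter φ.2)
  have hnsum : n = ∑ φ : Cfsg.IrrCharacter P, m φ * deg φ := by
    have h1 := hval 1
    rw [hn] at h1
    simp only [hdeg] at h1
    exact_mod_cast h1
  intro a b
  have hgoal : (a * b) * (b * a)⁻¹ = 1 := by
    apply hfaith
    rw [hval, hval]
    apply Finset.sum_congr rfl
    intro φ _
    by_cases h0 : m φ = 0
    · rw [h0]; simp
    · have hdle : deg φ ≤ n := by
        rw [hnsum]
        calc deg φ ≤ m φ * deg φ := Nat.le_mul_of_pos_left _ (Nat.pos_of_ne_zero h0)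
          _ ≤ ∑ φ : Cfsg.IrrCharacter P, m φ * deg φ :=
              Finset.single_le_sum (f := fun φ => m φ * deg φ) (fun _ _ => Nat.zero_le _)
                (Finset.mem_univ φ)
      obtain ⟨d, ρ, hirr, hρ⟩ := φ.2
      have hfr : finrank ℂ (Fin d → ℂ) = d := by simp
      have hdd : d = deg φ := by
        have h1 := hdeg φ
        rw [← hρ, Representation.char_one, hfr] at h1
        exact_mod_cast h1
      have hdvd : d ∣ Nat.card P := by
        haveI := hirr
        have := Cfsg.Agent.S0135.result ρ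
        rwa [hfr] at this
      haveI : Fact p.Prime := ⟨hp⟩
      obtain ⟨k, hk⟩ := IsPGroup.iff_card.mp hP
      rw [hk] at hdvd
      obtain ⟨j, _, hj⟩ := (Nat.dvd_prime_pow hp).mp hdvd
      have hd1 : d = 1 := by
        rcases Nat.eq_zero_or_pos j with h | h
        · rw [hj, h, pow_zero]
        · exfalso
          have : p ≤ d := by
            rw [hj]
            calc p = p ^ 1 := (pow_one p).symm
              _ ≤ p ^ j := Nat.pow_le_pow_right hp.pos h
          omega
      have hφ1 : (φ : P → ℂ) 1 = 1 := by rw [hdeg, ← hdd, hd1]; simp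
      obtain ⟨lam, hlam⟩ := exists_hom_of_degree_one (IsIrrCharacter.isCharacter φ.2) hφ1
      rw [hlam]
      simp only
      have : lam ((a * b) * (b * a)⁻¹) = lam 1 := by
        rw [map_mul, map_inv, map_mul, map_mul, map_one, mul_comm (lam a), mul_inv_cancel]
      rw [this]
  exact mul_inv_eq_one.mp hgoal

theorem isPGroup_zpowers {G : Type*} [Group G] {p : ℕ} {x : G} {s : ℕ} (hx : x ^ (p ^ s) = 1) :
    IsPGroup p (Subgroup.zpowers x) := by
  rintro ⟨y, i, rfl⟩
  refine ⟨s, ?_⟩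
  apply Subtype.ext
  show (x ^ i) ^ (p ^ s) = 1
  rw [← zpow_natCast, ← zpow_mul, mul_comm, zpow_mul, zpow_natCast, hx, one_zpow]

theorem not_dvd_index_centralizer {G : Type*} [Group G] [Finite G] {χ : G → ℂ}
    (hχ : Cfsg.IsCharacter G χ) (hfaith : ∀ g : G, χ g = χ 1 → g = 1) (n : ℕ) (hn : χ 1 = n)
    {p : ℕ} (hp : p.Prime) (hnp : n < p) (x : G) (s : ℕ) (hx : x ^ (p ^ s) = 1) :
    ¬ p ∣ (Subgroup.centralizer ({x} : Set G)).index := by
  haveI : Fact p.Prime := ⟨hp⟩
  obtain ⟨P, hP⟩ := (isPGroup_zpowers hx).exists_le_sylow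
  have hxP : x ∈ (P : Subgroup G) := hP (Subgroup.mem_zpowers x)
  have hab := abelian_of_pgroup (P := (P : Subgroup G)) hp P.2
    (IsCharacter.restrict (P : Subgroup G) hχ)
    (fun g hg => Subtype.ext (hfaith g hg)) n hn hnp
  have hle : (P : Subgroup G) ≤ Subgroup.centralizer ({x} : Set G) := by
    intro y hy
    rw [Subgroup.mem_centralizer_iff]
    intro h hh
    rw [Set.mem_singleton_iff] at hh
    rw [hh]
    exact congrArg Subtype.val (hab ⟨x, hxP⟩ ⟨y, hy⟩)
  intro hdvd
  exact P.not_dvd_index (hdvd.trans (Subgroup.index_dvd_of_le hle))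

theorem exists_conj_mem {G : Type*} [Group G] (B : Subgroup G) {p : ℕ} (hp : p.Prime)
    (hB : ¬ p ∣ B.index) (x : G) (s : ℕ) (hx : x ^ (p ^ s) = 1) : ∃ g : G, g⁻¹ * x * g ∈ B := by
  haveI : Fact p.Prime := ⟨hp⟩
  obtain ⟨c, hc⟩ := (isPGroup_zpowers hx).nonempty_fixed_point_of_prime_not_dvd_card (G ⧸ B) hB
  induction c using QuotientGroup.induction_on with
  | H g =>
    refine ⟨g, ?_⟩
    have h1 := hc ⟨x, Subgroup.mem_zpowers x⟩
    have h2 : ((x * g : G) : G ⧸ B) = (g : G ⧸ B) := h1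
    have h3 := QuotientGroup.eq.mp h2.symm
    rwa [← mul_assoc] at h3

theorem not_dvd_of_le_conj {G : Type*} [Group G] (B : Subgroup G) (g x : G)
    (hB : B ≤ Subgroup.centralizer ({g⁻¹ * x * g} : Set G)) (q : ℕ) (hq : ¬ q ∣ B.index) :
    ¬ q ∣ (Subgroup.centralizer ({x} : Set G)).index := by
  have h1 : (B.map ((MulAut.conj g : G ≃* G) : G →* G)).index = B.index :=
    Subgroup.index_map_equiv B (MulAut.conj g)
  have h2 : B.map ((MulAut.conj g : G ≃* G) : G →* G) ≤ Subgroup.centralizer ({x} : Set G) := by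
    rintro _ ⟨b, hb, rfl⟩
    rw [Subgroup.mem_centralizer_iff]
    intro h hh
    rw [Set.mem_singleton_iff] at hh
    rw [hh]
    have h3 := (Subgroup.mem_centralizer_iff.mp (hB hb)) (g⁻¹ * x * g) rfl
    show x * (g * b * g⁻¹) = (g * b * g⁻¹) * x
    calc x * (g * b * g⁻¹) = g * ((g⁻¹ * x * g) * b) * g⁻¹ := by group
      _ = g * (b * (g⁻¹ * x * g)) * g⁻¹ := by rw [h3]
      _ = (g * b * g⁻¹) * x := by group
  intro hdvd
  apply hq
  rw [← h1]
  exact hdvd.trans (Subgroup.index_dvd_of_le h2)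

end Cfsg.Agent.Lib.Helper2.Blich
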