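import Mathlib
import Cfsg.Prelude.Def_Characters
import Cfsg.Agent.Lib.Helper2.Blich5

/-! Blichfeldt's theorem: abelian Hall subgroups for the primes above `n + 1`. -/

set_option autoImplicit false

namespace Cfsg.Agent.Lib.Helper2.Blich

open Module Cfsg.Agent.Lib.Helper2

def Good (n : ℕ) (G : Type*) [Group G] : Prop :=
  ∃ A : Subgroup G, (∀ x ∈ A, ∀ y ∈ A, x * y = y * x) ∧
    (∀ q : ℕ, q.Prime → q ∣ Nat.card A → n + 1 < q) ∧
    ∀ q : ℕ, q.Prime → q ∣ A.index → q ≤ n + 1

theorem lift_good {G : Type*} [Group G] {n : ℕ} (H : Subgroup G) (hH : Good n H) :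
    ∃ B : Subgroup G, B ≤ H ∧ (∀ x ∈ B, ∀ y ∈ B, x * y = y * x) ∧
      (∀ q : ℕ, q.Prime → q ∣ Nat.card B → n + 1 < q) ∧
      (∀ q : ℕ, q.Prime → q ∣ B.index → q ≤ n + 1 ∨ q ∣ H.index) ∧
      (∀ q : ℕ, q.Prime → n + 1 < q → ∀ x ∈ H, ∀ s : ℕ, x ^ (q ^ s) = 1 →
        ∃ c ∈ H, c⁻¹ * x * c ∈ B) := by
  obtain ⟨B', h1, h2, h3⟩ := hH
  refine ⟨B'.map H.subtype, Subgroup.map_subtype_le B', ?_, ?_, ?_, ?_⟩
  · rintro _ ⟨x, hx, rfl⟩ _ ⟨y, hy, rfl⟩
    exact congrArg Subtype.val (h1 x hx y hy)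
  · intro q hq hd
    rw [Subgroup.card_subtype] at hd
    exact h2 q hq hd
  · intro q hq hd
    rw [Subgroup.index_map_subtype] at hd
    rcases (Nat.Prime.dvd_mul hq).mp hd with h | h
    · exact Or.inl (h3 q hq h)
    · exact Or.inr h
  · intro q hq hnq x hx s hxs
    obtain ⟨g, hg⟩ := exists_conj_mem B' hq (fun hd => absurd (h3 q hq hd) (by omega))
      (⟨x, hx⟩ : H) s (Subtype.ext hxs)
    exact ⟨g, g.2, ⟨_, hg, rfl⟩⟩

section step

variable {G : Type*} [Group G] [Finite G] {χ : G → ℂ} (hχ : Cfsg.IsCharacter G χ)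
  (hfaith : ∀ g : G, χ g = χ 1 → g = 1) (n : ℕ) (hn : χ 1 = n)
  (IH : ∀ H : Subgroup G, H ≠ ⊤ → Good n H)

theorem centralizer_ne_top {x : G} (hx : x ∉ Subgroup.center G) :
    Subgroup.centralizer ({x} : Set G) ≠ ⊤ := by
  intro h
  rw [Subgroup.centralizer_eq_top_iff_subset] at h
  exact hx (h rfl)

theorem le_centralizer_of_abelian (B : Subgroup G) (hB : ∀ x ∈ B, ∀ y ∈ B, x * y = y * x)
    {x : G} (hx : x ∈ B) : B ≤ Subgroup.centralizer ({x} : Set G) := by
  intro y hy
  rw [Subgroup.mem_centralizer_iff]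
  intro h hh
  rw [Set.mem_singleton_iff] at hh
  rw [hh]
  exact hB x hx y hy

include hχ hfaith hn IH in
theorem c3 {p q : ℕ} (hp : p.Prime) (hq : q.Prime) (hnp : n + 1 < p) (hnq : n + 1 < q)
    (x : G) (s : ℕ) (hx : x ^ (p ^ s) = 1) :
    ¬ q ∣ (Subgroup.centralizer ({x} : Set G)).index := by
  by_cases h : ∃ (a b : G) (s t : ℕ), a ^ (p ^ s) = 1 ∧ b ^ (q ^ t) = 1 ∧ a * b ≠ b * a
  · obtain ⟨a, b, s', t', ha, hb, hab⟩ := h
    obtain ⟨x1, y1, hcomm, ⟨s1, hx1⟩, ⟨t1, hy1⟩, hxc, hyc⟩ :=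
      key hχ hfaith n hn hp hq hnp hnq a b s' t' ha hb hab
    have hqC := not_dvd_index_centralizer hχ hfaith n hn hq (by omega) y1 t1 hy1
    obtain ⟨B, hBC, hBab, _, hBidx, hBconj⟩ :=
      lift_good _ (IH _ (centralizer_ne_top hyc))
    have hqB : ¬ q ∣ B.index := by
      intro hd
      rcases hBidx q hq hd with h | h
      · omega
      · exact hqC h
    have hx1C : x1 ∈ Subgroup.centralizer ({y1} : Set G) := by
      rw [Subgroup.mem_centralizer_iff]
      intro h hh
      rw [Set.mem_singleton_iff] at hh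
      rw [hh]
      exact hcomm.symm
    obtain ⟨c, _, hcB⟩ := hBconj p hp hnp x1 hx1C s1 hx1
    set x2 := c⁻¹ * x1 * c with hx2
    have hx2p : x2 ^ (p ^ s1) = 1 := by
      have h1 : x2 = c⁻¹ * x1 * (c⁻¹)⁻¹ := by rw [inv_inv]
      rw [h1, conj_pow, hx1, mul_one, mul_inv_cancel]
    have hx2c : x2 ∉ Subgroup.center G := by
      intro h
      apply hxc
      have h1 := (inferInstance : (Subgroup.center G).Normal).conj_mem x2 h c
      have h2 : c * x2 * c⁻¹ = x1 := by rw [hx2]; group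
      rwa [h2] at h1
    have hq2 : ¬ q ∣ (Subgroup.centralizer ({x2} : Set G)).index := fun hd =>
      hqB (hd.trans (Subgroup.index_dvd_of_le (le_centralizer_of_abelian B hBab hcB)))
    have hp2 := not_dvd_index_centralizer hχ hfaith n hn hp (by omega) x2 s1 hx2p
    obtain ⟨B2, _, hB2ab, _, hB2idx, _⟩ := lift_good _ (IH _ (centralizer_ne_top hx2c))
    have hpB2 : ¬ p ∣ B2.index := by
      intro hd
      rcases hB2idx p hp hd with h | h
      · omega
      · exact hp2 h
    have hqB2 : ¬ q ∣ B2.index := by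
      intro hd
      rcases hB2idx q hq hd with h | h
      · omega
      · exact hq2 h
    obtain ⟨g, hg⟩ := exists_conj_mem B2 hp hpB2 x s hx
    exact not_dvd_of_le_conj B2 g x (le_centralizer_of_abelian B2 hB2ab hg) q hqB2
  · push Not at h
    haveI : Fact q.Prime := ⟨hq⟩
    let Q : Sylow q G := default
    have hle : (Q : Subgroup G) ≤ Subgroup.centralizer ({x} : Set G) := by
      intro y hy
      rw [Subgroup.mem_centralizer_iff]
      intro z hz
      rw [Set.mem_singleton_iff] at hz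
      rw [hz]
      obtain ⟨t, ht⟩ := Q.2 ⟨y, hy⟩
      exact h x y s t hx (congrArg Subtype.val ht)
    intro hd
    exact Q.not_dvd_index (hd.trans (Subgroup.index_dvd_of_le hle))

include hχ hfaith hn IH in
theorem step : Good n G := by
  by_cases hnc : ∃ p : ℕ, p.Prime ∧ n + 1 < p ∧ ∃ (x : G) (s : ℕ), x ^ (p ^ s) = 1 ∧
      x ∉ Subgroup.center G
  · obtain ⟨p, hp, hnp, x, s, hx, hxc⟩ := hnc
    obtain ⟨B, _, hBab, hBcard, hBidx, _⟩ := lift_good _ (IH _ (centralizer_ne_top hxc))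
    refine ⟨B, hBab, hBcard, fun r hr hd => ?_⟩
    rcases hBidx r hr hd with h | h
    · exact h
    · by_contra hlt
      push Not at hlt
      by_cases hrp : r = p
      · subst hrp
        exact not_dvd_index_centralizer hχ hfaith n hn hr (by omega) x s hx h
      · exact c3 hχ hfaith n hn IH hp hr hnp hlt x s hx h
  · push Not at hnc
    let A : Subgroup G :=
      { carrier := {z | z ∈ Subgroup.center G ∧ ∀ r : ℕ, r.Prime → r ∣ orderOf z → n + 1 < r}
        mul_mem' := by
          rintro z w ⟨hz1, hz2⟩ ⟨hw1, hw2⟩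
          refine ⟨mul_mem hz1 hw1, fun r hr hd => ?_⟩
          have hc : Commute z w := ((Subgroup.mem_center_iff.mp hz1) w).symm
          have h1 : r ∣ orderOf z * orderOf w :=
            hd.trans (hc.orderOf_mul_dvd_lcm.trans (Nat.lcm_dvd_mul _ _))
          rcases (Nat.Prime.dvd_mul hr).mp h1 with h | h
          · exact hz2 r hr h
          · exact hw2 r hr h
        one_mem' := by
          refine ⟨one_mem _, fun r hr hd => ?_⟩
          rw [orderOf_one] at hd
          exact absurd (Nat.dvd_one.mp hd) hr.one_lt.ne'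
        inv_mem' := by
          rintro z ⟨hz1, hz2⟩
          refine ⟨inv_mem hz1, fun r hr hd => ?_⟩
          rw [orderOf_inv] at hd
          exact hz2 r hr hd }
    refine ⟨A, ?_, ?_, ?_⟩
    · intro x hx y _
      exact ((Subgroup.mem_center_iff.mp hx.1) y).symm
    · intro r hr hd
      haveI : Fact r.Prime := ⟨hr⟩
      obtain ⟨z, hz⟩ := exists_prime_orderOf_dvd_card' r hd
      apply z.2.2 r hr
      rw [Subgroup.orderOf_coe, hz]
    · intro r hr hd
      by_contra hlt
      push Not at hlt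
      haveI : Fact r.Prime := ⟨hr⟩
      let R : Sylow r G := default
      have hle : (R : Subgroup G) ≤ A := by
        intro y hy
        obtain ⟨t, ht⟩ := R.2 ⟨y, hy⟩
        have ht' : y ^ (r ^ t) = 1 := congrArg Subtype.val ht
        refine ⟨hnc r hr hlt y t ht', fun r' hr' hd' => ?_⟩
        have h1 : r' ∣ r ^ t := hd'.trans (orderOf_dvd_of_pow_eq_one ht')
        have h2 : r' = r := (Nat.prime_dvd_prime_iff_eq hr' hr).mp (hr'.dvd_of_dvd_pow h1)
        rw [h2]
        exact hlt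
      exact R.not_dvd_index (hd.trans (Subgroup.index_dvd_of_le hle))

end step

universe u

theorem main (n : ℕ) : ∀ (N : ℕ) (G : Type u) [Group G] [Finite G], Nat.card G = N →
    ∀ χ : G → ℂ, Cfsg.IsCharacter G χ → (∀ g : G, χ g = χ 1 → g = 1) → χ 1 = n → Good n G := by
  intro N
  induction N using Nat.strong_induction_on with
  | _ N ih =>
    intro G _ _ hN χ hχ hfaith hn
    apply step hχ hfaith n hn
    intro H hH
    have hlt : Nat.card H < N := by
      rw [← hN]
      by_contra hge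
      push Not at hge
      exact hH (Subgroup.eq_top_of_le_card H hge)
    exact ih (Nat.card H) hlt H rfl _ (IsCharacter.restrict H hχ)
      (fun g hg => Subtype.ext (hfaith g hg)) hn

end Cfsg.Agent.Lib.Helper2.Blich
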