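import Mathlib

set_option autoImplicit false

namespace Cfsg.Agent.Lib.Helper2.CycTI

open Polynomial

section poly

variable (F : Type*) [Field F] (p : ℕ) [Fact p.Prime] [CharP F p]

theorem poly_sub_one_pow (k : ℕ) : ((X : F[X]) - 1) ^ (p ^ k) = X ^ (p ^ k) - 1 := by
  rw [sub_pow_char_pow, one_pow]

theorem poly_geom (k : ℕ) :
    ∑ j ∈ Finset.range (p ^ k), (X : F[X]) ^ j = (X - 1) ^ (p ^ k - 1) := by
  have h1 : (∑ j ∈ Finset.range (p ^ k), (X : F[X]) ^ j) * (X - 1) = X ^ (p ^ k) - 1 :=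
    geom_sum_mul X _
  have hpos : 1 ≤ p ^ k := Nat.one_le_pow _ _ (Fact.out : p.Prime).pos
  have h2 : ((X : F[X]) - 1) ^ (p ^ k - 1) * (X - 1) = X ^ (p ^ k) - 1 := by
    rw [← pow_succ, Nat.sub_add_cancel hpos, poly_sub_one_pow]
  have h3 : (X : F[X]) - 1 ≠ 0 := by
    have := X_sub_C_ne_zero (1 : F)
    simpa using this
  exact mul_right_cancel₀ h3 (h1.trans h2.symm)

variable {F p}

theorem sub_one_pow {A : Type*} [Ring A] [Algebra F A] (a : A) (k : ℕ) :
    (a - 1) ^ (p ^ k) = a ^ (p ^ k) - 1 := by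
  have := congrArg (aeval (R := F) a) (poly_sub_one_pow F p k)
  simpa using this

theorem geom {A : Type*} [Ring A] [Algebra F A] (a : A) (k : ℕ) :
    ∑ j ∈ Finset.range (p ^ k), a ^ j = (a - 1) ^ (p ^ k - 1) := by
  have := congrArg (aeval (R := F) a) (poly_geom F p k)
  simpa using this

end poly

section lin

variable {F : Type*} [Field F] {V : Type*} [AddCommGroup V] [Module F V]

theorem no_small_poly (p : ℕ) (a : Module.End F V) (t : ℕ) (ht : (a - 1) ^ t ≠ 0)
    (ht1 : (a - 1) ^ (t + 1) = 0) (hpt : p ≤ t) (h : F[X]) (h0 : h ≠ 0) (hdeg : h.natDegree < p)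
    (Z : Module.End F V) (hZ : aeval a h = (a - 1) ^ p * Z) : False := by
  obtain ⟨h₄, hh, hnd⟩ := exists_eq_pow_rootMultiplicity_mul_and_not_dvd h h0 1
  set r := rootMultiplicity 1 h with hr
  have h40 : h₄ ≠ 0 := by
    rintro rfl
    exact hnd (dvd_zero _)
  have hrle : r ≤ h.natDegree := by
    conv_rhs => rw [hh]
    rw [natDegree_mul (pow_ne_zero _ (X_sub_C_ne_zero 1)) h40, natDegree_pow, natDegree_X_sub_C]
    omega
  have hc : h₄.eval 1 ≠ 0 := by
    intro hc
    exact hnd (dvd_iff_isRoot.mpr hc)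
  obtain ⟨h₅, hh5⟩ := X_sub_C_dvd_sub_C_eval (a := (1 : F)) (p := h₄)
  have e4 : aeval a h₄ = (a - 1) * aeval a h₅ + algebraMap F _ (h₄.eval 1) := by
    have := congrArg (aeval a) hh5
    simp only [map_sub, map_mul, aeval_X, aeval_C, map_one] at this
    rw [← this]; abel
  have e1 : aeval a h = (a - 1) ^ r * aeval a h₄ := by
    conv_lhs => rw [hh]
    simp
  have e2 : (a - 1) ^ (t - r) * aeval a h = (h₄.eval 1) • (a - 1) ^ t := by
    rw [e1, ← mul_assoc, ← pow_add, Nat.sub_add_cancel (by omega), e4, mul_add, ← mul_assoc,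
      ← pow_succ, ht1, zero_mul, zero_add, Algebra.algebraMap_eq_smul_one, mul_smul_comm, mul_one]
  have e3 : (a - 1) ^ (t - r) * aeval a h = 0 := by
    rw [hZ, ← mul_assoc, ← pow_add]
    have : t - r + p = (t + 1) + (p - r - 1) := by omega
    rw [this, pow_add, ht1, zero_mul, zero_mul]
  rw [e3] at e2
  rcases smul_eq_zero.mp e2.symm with h | h
  · exact hc h
  · exact ht h

variable {p : ℕ} [Fact p.Prime] [CharP F p]

theorem trace_mem (a b : Module.End F V) (hab : a * b = 1) (hba : b * a = 1) (n : ℕ)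
    (hn : 1 ≤ n) (hx : (a - 1) ^ (p ^ n - p) = 0) (W : Module.End F V) :
    ∑ j ∈ Finset.range (p ^ n), a ^ j * W * b ^ j ∈
      LinearMap.range (LinearMap.mulLeft F ((a - 1) ^ p)) := by
  have hple : p ≤ p ^ n := Nat.le_self_pow (by omega) p
  set J := LinearMap.range (LinearMap.mulLeft F ((a - 1) ^ p)) with hJ
  set L : Module.End F (Module.End F V) := LinearMap.mulLeft F a with hL
  set R : Module.End F (Module.End F V) := LinearMap.mulRight F b with hR
  set lam : Module.End F (Module.End F V) := LinearMap.mulLeft F (a - 1) with hlam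
  set bet : Module.End F (Module.End F V) := LinearMap.mulRight F (b - 1) with hbet
  have hLR : Commute L R := LinearMap.commute_mulLeft_right a b
  have hterm : ∀ j, a ^ j * W * b ^ j = ((L * R) ^ j) W := by
    intro j
    rw [hLR.mul_pow, hL, hR, LinearMap.pow_mulLeft, LinearMap.pow_mulRight]
    simp [mul_assoc]
  have hsum : ∑ j ∈ Finset.range (p ^ n), a ^ j * W * b ^ j
      = (∑ j ∈ Finset.range (p ^ n), (L * R) ^ j) W := by
    rw [LinearMap.sum_apply]
    exact Finset.sum_congr rfl fun j _ => hterm j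
  have hdec : L * R - 1 = lam * R + bet := by
    ext W' v
    simp [hL, hR, hlam, hbet, sub_mul, mul_sub]
  have hc1 : Commute lam R := LinearMap.commute_mulLeft_right (a - 1) b
  have hc2 : Commute lam bet := LinearMap.commute_mulLeft_right (a - 1) (b - 1)
  have hc3 : Commute R bet := by
    show R * bet = bet * R
    ext W' v
    simp [hR, hbet, mul_sub, sub_mul]
  have hcomm : Commute (lam * R) bet := hc2.mul_left hc3
  have hb0 : (b - 1) ^ (p ^ n - p) = 0 := by
    have h1 : b - 1 = -(b * (a - 1)) := by rw [mul_sub, hba, mul_one]; abel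
    have h2 : Commute b (a - 1) := by
      show b * (a - 1) = (a - 1) * b
      rw [mul_sub, sub_mul, hab, hba]; simp
    rw [h1, neg_pow, h2.mul_pow, hx, mul_zero, mul_zero]
  rw [hsum, geom (F := F) (p := p), hdec, hcomm.add_pow, LinearMap.sum_apply]
  refine Submodule.sum_mem _ fun m hm => ?_
  have hm' : m < p ^ n - 1 + 1 := Finset.mem_range.mp hm
  by_cases hmp : m < p
  · have h1 : bet ^ (p ^ n - 1 - m) = 0 := by
      rw [hbet, LinearMap.pow_mulRight]
      have : p ^ n - 1 - m = (p ^ n - p) + (p - 1 - m) := by omega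
      rw [this, pow_add, hb0, zero_mul]
      ext; simp
    rw [h1]
    simp
  · have h1 : (lam * R) ^ m = LinearMap.mulLeft F ((a - 1) ^ p) * (lam ^ (m - p) * R ^ m) := by
      rw [hc1.mul_pow, ← mul_assoc, ← LinearMap.pow_mulLeft, ← hlam, ← pow_add,
        Nat.add_sub_cancel' (by omega)]
    rw [h1]
    refine ⟨(lam ^ (m - p) * R ^ m * bet ^ (p ^ n - 1 - m) * ((p ^ n - 1).choose m : Module.End F (Module.End F V))) W, ?_⟩
    simp [mul_assoc]

end lin

end Cfsg.Agent.Lib.Helper2.CycTI
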