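import Mathlib
import Cfsg.Agent.Lib.Helper2.CycTI1
import Cfsg.Agent.Lib.Helper2.CycTI2

set_option autoImplicit false

namespace Cfsg.Agent.Lib.Helper2.CycTI

open Polynomial

section syl

variable {G : Type*} [Group G] [Finite G] {p : ℕ} [Fact p.Prime] (P : Sylow p G)

theorem mem_of_commute
    (hTI : ∀ Q : Sylow p G, Q ≠ P → (P : Subgroup G) ⊓ (Q : Subgroup G) = ⊥)
    {u z : G} (hu : u ∈ (P : Subgroup G)) (hu1 : u ≠ 1) (huz : u * z = z * u)
    (g : G) (hz : z ∈ ((g • P : Sylow p G) : Subgroup G)) : z ∈ (P : Subgroup G) := by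
  have h1 : u ∈ ((z • P : Sylow p G) : Subgroup G) := by
    rw [Sylow.coe_subgroup_smul, Subgroup.mem_pointwise_smul_iff_inv_smul_mem]
    have : z⁻¹ * u * z = u := by rw [mul_assoc, huz, inv_mul_cancel_left]
    simpa [MulAut.smul_def, this] using hu
  have h2 : (z • P : Sylow p G) = P := by
    by_contra hne
    have h3 := hTI _ hne
    have h4 : u ∈ (P : Subgroup G) ⊓ ((z • P : Sylow p G) : Subgroup G) := ⟨hu, h1⟩
    rw [h3] at h4
    exact hu1 (Subgroup.mem_bot.mp h4)
  have hx : z ∈ Subgroup.normalizer ((P : Subgroup G) : Set G) :=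
    Sylow.smul_eq_iff_mem_normalizer.mp h2
  have h5 : IsPGroup p (Subgroup.zpowers z) :=
    (g • P : Sylow p G).isPGroup'.to_le (Subgroup.zpowers_le.2 hz)
  have h6 : IsPGroup p (Subgroup.zpowers z ⊔ (P : Subgroup G) : Subgroup G) :=
    h5.to_sup_of_normal_right' P.isPGroup' (Subgroup.zpowers_le.2 hx)
  have h7 := P.is_maximal' h6 le_sup_right
  rw [← h7]
  exact (le_sup_left : Subgroup.zpowers z ≤ _) (Subgroup.mem_zpowers _)

theorem kap_mem_smul {y : G} (hy : y ∈ (P : Subgroup G))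
    (s : G ⧸ Subgroup.centralizer ({y} : Set G)) :
    kap y s ∈ ((s.out • P : Sylow p G) : Subgroup G) := by
  rw [Sylow.coe_subgroup_smul, Subgroup.mem_pointwise_smul_iff_inv_smul_mem]
  unfold kap
  simpa [MulAut.smul_def, mul_assoc] using hy

end syl

theorem main {G : Type*} [Group G] [Finite G] (p : ℕ) [Fact p.Prime] (P : Sylow p G)
    (hcyc : IsCyclic P) (n : ℕ) (hn : 2 ≤ n) (hPn : Nat.card P = p ^ n)
    (hTI : ∀ Q : Sylow p G, Q ≠ P → (P : Subgroup G) ⊓ (Q : Subgroup G) = ⊥)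
    (F : Type*) [Field F] [CharP F p] (V : Type*) [AddCommGroup V] [Module F V]
    [FiniteDimensional F V] (ρ : Representation F G V) (hfaith : Function.Injective ρ)
    (hirr : ρ.IsIrreducible) : p ^ n - (p - 1) ≤ Module.finrank F V := by
  classical
  by_contra hcon
  have hp : p.Prime := Fact.out
  have hp2 : 2 ≤ p := hp.two_le
  cases nonempty_fintype G
  have hVnt : Nontrivial V := by
    by_contra hV
    rw [not_nontrivial_iff_subsingleton] at hV
    obtain ⟨a, b, hab⟩ := hirr.toNontrivial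
    apply hab
    apply Subrepresentation.toSubmodule_injective
    exact Subsingleton.elim _ _
  have hq1 : p ≤ p ^ (n - 1) := Nat.le_self_pow (by omega) p
  have hq2 : p ^ n = p ^ (n - 1) * p := by rw [← pow_succ]; congr 1; omega
  have hq3 : p ^ (n - 1) < p ^ n := Nat.pow_lt_pow_right (by omega) (by omega)
  have hple : p ≤ p ^ n := by omega
  obtain ⟨g0, hg0⟩ := IsCyclic.exists_generator (α := P)
  set y : G := (g0 : G) with hy
  have hyP : y ∈ (P : Subgroup G) := g0.2
  have hord0 : orderOf g0 = p ^ n := by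
    rw [orderOf_eq_card_of_forall_mem_zpowers hg0, hPn]
  have hord : orderOf y = p ^ n := by rw [hy, Subgroup.orderOf_coe, hord0]
  have hy1 : y ≠ 1 := by
    intro h
    rw [h, orderOf_one] at hord
    omega
  have hPab : ∀ u ∈ (P : Subgroup G), u * y = y * u := by
    intro u hu
    obtain ⟨k, hk⟩ := Subgroup.mem_zpowers_iff.mp (hg0 ⟨u, hu⟩)
    have : u = y ^ k := by
      have := congrArg Subtype.val hk
      simpa using this.symm
    rw [this]
    exact ((Commute.refl y).zpow_left k).eq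
  have hPpow : ∀ u ∈ (P : Subgroup G), ∃ k : ℕ, u = y ^ k := by
    intro u hu
    have h1 : (⟨u, hu⟩ : P) ∈ Submonoid.powers g0 := by
      rw [mem_powers_iff_mem_zpowers]
      exact hg0 _
    obtain ⟨k, hk⟩ := h1
    refine ⟨k, ?_⟩
    have := congrArg Subtype.val hk
    simpa using this.symm
  set C := Subgroup.centralizer ({y} : Set G) with hC
  set a : Module.End F V := ρ y with ha
  set b : Module.End F V := ρ y⁻¹ with hb
  have hab : a * b = 1 := by rw [ha, hb, ← map_mul, mul_inv_cancel, map_one]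
  have hba : b * a = 1 := by rw [ha, hb, ← map_mul, inv_mul_cancel, map_one]
  set x : Module.End F V := a - 1 with hx
  have hxq : x ^ (p ^ n) = 0 := by
    rw [hx, sub_one_pow (F := F) (p := p), ha, ← map_pow, ← hord, pow_orderOf_eq_one, map_one,
      sub_self]
  have hxd : x ^ (p ^ n - p) = 0 := by
    have hnil : IsNilpotent x := ⟨_, hxq⟩
    have h1 := LinearMap.aeval_self_charpoly x
    rw [hnil.charpoly_eq_X_pow_finrank] at h1
    simp only [map_pow, aeval_X] at h1
    have h2 : p ^ n - p = Module.finrank F V + (p ^ n - p - Module.finrank F V) := by omega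
    rw [h2, pow_add, h1, zero_mul]
  have hxne : x ^ (p ^ (n - 1)) ≠ 0 := by
    rw [hx, sub_one_pow (F := F) (p := p), ha, ← map_pow, sub_ne_zero]
    intro h
    rw [← map_one ρ] at h
    have h1 := hfaith h
    have h2 := orderOf_dvd_of_pow_eq_one h1
    rw [hord] at h2
    exact absurd (Nat.le_of_dvd (by positivity) h2) (by omega)
  -- the exact nilpotency index
  have hex : ∃ t, x ^ (t + 1) = 0 := ⟨p ^ n, by rw [pow_succ, hxq, zero_mul]⟩
  set t := Nat.find hex with ht
  have ht1 : x ^ (t + 1) = 0 := Nat.find_spec hex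
  have htge : p ^ (n - 1) ≤ t := by
    by_contra h
    apply hxne
    have : p ^ (n - 1) = (t + 1) + (p ^ (n - 1) - (t + 1)) := by omega
    rw [this, pow_add, ht1, zero_mul]
  have ht0 : x ^ t ≠ 0 := by
    intro h
    have h1 : t - 1 + 1 = t := by omega
    have h2 : x ^ (t - 1 + 1) = 0 := by rw [h1]; exact h
    have := Nat.find_min' hex h2
    omega
  -- the function on cosets
  set Φ : G ⧸ C → Module.End F V := fun s => ρ (kap y s) - 1 with hΦ
  have hΦsmul : ∀ (h : G) (s : G ⧸ C), Φ (h • s) = ρ h * Φ s * ρ h⁻¹ := by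
    intro h s
    simp only [hΦ]
    rw [kap_smul, map_mul, map_mul, mul_sub, sub_mul, mul_one, ← map_mul ρ h h⁻¹, mul_inv_cancel,
      map_one]
  set J := LinearMap.range (LinearMap.mulLeft F (x ^ p)) with hJ
  have hJsum : ∀ s : G ⧸ C, ∑ u : (P : Subgroup G), Φ (u • s) ∈ J.toAddSubgroup := by
    intro s
    have h1 : ∑ u : (P : Subgroup G), Φ (u • s)
        = ∑ j ∈ Finset.range (p ^ n), a ^ j * Φ s * b ^ j := by
      rw [← IsCyclic.image_range_orderOf hg0, hord0, Finset.sum_image]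
      · refine Finset.sum_congr rfl fun j _ => ?_
        have h2 : (g0 ^ j) • s = (y ^ j) • s := rfl
        rw [h2, hΦsmul, map_pow, ← inv_pow, map_pow]
      · intro i hi j hj hij
        have hi' : i < orderOf g0 := by rw [hord0]; exact Finset.mem_range.mp hi
        have hj' : j < orderOf g0 := by rw [hord0]; exact Finset.mem_range.mp hj
        exact pow_injOn_Iio_orderOf hi' hj' hij
    rw [h1]
    exact trace_mem a b hab hba n (by omega) hxd (Φ s)
  have hfix1 : ∀ s : G ⧸ C, ∀ u : (P : Subgroup G), u ≠ 1 → u • s = s →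
      kap y s ∈ (P : Subgroup G) := by
    intro s u hu hus
    have h1 : (u : G) • s = s := hus
    rw [smul_eq_iff] at h1
    exact mem_of_commute P hTI u.2 (fun h => hu (Subtype.ext h)) h1 _ (kap_mem_smul P hyP s)
  have hfix2 : ∀ s : G ⧸ C, kap y s ∈ (P : Subgroup G) →
      s ∈ MulAction.fixedPoints (P : Subgroup G) (G ⧸ C) := by
    intro s hs u
    show (u : G) • s = s
    rw [smul_eq_iff]
    obtain ⟨k, hk⟩ := hPpow _ hs
    rw [hk]
    exact ((show Commute (u : G) y from hPab u u.2).pow_right k).eq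
  have hfix3 : ∀ s : G ⧸ C, s ∈ MulAction.fixedPoints (P : Subgroup G) (G ⧸ C) →
      kap y s ∈ (P : Subgroup G) := by
    intro s hs
    exact hfix1 s g0 (fun h => hy1 (by rw [hy, h]; rfl)) (hs g0)
  have hfree : ∀ s : G ⧸ C, s ∉ MulAction.fixedPoints (P : Subgroup G) (G ⧸ C) →
      ∀ u : (P : Subgroup G), u • s = s → u = 1 := by
    intro s hs u hus
    by_contra hu
    exact hs (hfix2 s (hfix1 s u hu hus))
  have hD := sum_sub_fixed_mem (P := (P : Subgroup G)) J.toAddSubgroup Φ hJsum hfree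
  set Fx := Finset.univ.filter (· ∈ MulAction.fixedPoints (P : Subgroup G) (G ⧸ C)) with hFx
  set δ : Module.End F V := ∑ s : G ⧸ C, Φ s with hδ
  set T₁ : Module.End F V := ∑ s ∈ Fx, Φ s with hT₁
  -- exponents
  have hexp : ∀ s : G ⧸ C, ∃ k : ℕ, s ∈ Fx → (Φ s = a ^ k - 1 ∧ ¬ p ∣ k) := by
    intro s
    by_cases hs : s ∈ Fx
    · have hs' := hfix3 s (Finset.mem_filter.mp hs).2
      obtain ⟨k, hk⟩ := hPpow _ hs'
      refine ⟨k, fun _ => ⟨by simp only [hΦ]; rw [hk, map_pow], fun hpk => ?_⟩⟩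
      have h1 := orderOf_kap y s
      rw [hk, hord] at h1
      obtain ⟨l, rfl⟩ := hpk
      have h2 : (y ^ (p * l)) ^ (p ^ (n - 1)) = 1 := by
        rw [← pow_mul, mul_comm p l, mul_assoc, mul_comm p, ← hq2, mul_comm, pow_mul, ← hord,
          pow_orderOf_eq_one, one_pow]
      have h3 := orderOf_dvd_of_pow_eq_one h2
      rw [h1] at h3
      exact absurd (Nat.le_of_dvd (by positivity) h3) (by omega)
    · exact ⟨0, fun h => absurd h hs⟩
  choose k hk using hexp
  have hcax : Commute a x := by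
    show a * (a - 1) = (a - 1) * a
    rw [mul_sub, sub_mul]; simp
  -- δ lies in x * End
  have hxJ : ∀ Z ∈ J, ∃ Z', Z = x * Z' := by
    rintro _ ⟨Z, rfl⟩
    refine ⟨x ^ (p - 1) * Z, ?_⟩
    rw [LinearMap.mulLeft_apply, ← mul_assoc, ← pow_succ', Nat.sub_add_cancel (by omega)]
  have hT₁x : ∃ Z', T₁ = x * Z' := by
    refine ⟨∑ s ∈ Fx, ∑ i ∈ Finset.range (k s), a ^ i, ?_⟩
    rw [hT₁, Finset.mul_sum]
    refine Finset.sum_congr rfl fun s hs => ?_
    rw [(hk s hs).1, hx, mul_geom_sum]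
  have hδx : ∃ Z', δ = x * Z' := by
    obtain ⟨Z1, hZ1⟩ := hxJ _ hD
    obtain ⟨Z2, hZ2⟩ := hT₁x
    refine ⟨Z1 + Z2, ?_⟩
    rw [mul_add, ← hZ1, ← hZ2]; abel
  have hδcomm : ∀ h : G, ρ h * δ = δ * ρ h := by
    intro h
    have h1 : ρ h * δ * ρ h⁻¹ = δ := by
      rw [hδ, Finset.mul_sum, Finset.sum_mul]
      simp_rw [← hΦsmul]
      exact Equiv.sum_comp (MulAction.toPerm h) Φ
    calc ρ h * δ = ρ h * δ * (ρ h⁻¹ * ρ h) := by
          rw [← map_mul, inv_mul_cancel, map_one, mul_one]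
      _ = (ρ h * δ * ρ h⁻¹) * ρ h := by rw [mul_assoc, mul_assoc, mul_assoc]
      _ = δ * ρ h := by rw [h1]
  have hδ0 : δ = 0 := by
    let W : Subrepresentation ρ := ⟨LinearMap.range δ, by
      rintro h _ ⟨v, rfl⟩
      exact ⟨ρ h v, (congrArg (fun T : Module.End F V => T v) (hδcomm h)).symm⟩⟩
    have _ := hirr
    rcases eq_bot_or_eq_top W with h | h
    · have h1 : LinearMap.range δ = ⊥ := congrArg Subrepresentation.toSubmodule h
      exact LinearMap.range_eq_bot.mp h1
    · exfalso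
      have h1 : LinearMap.range δ = ⊤ := congrArg Subrepresentation.toSubmodule h
      obtain ⟨Z', hZ'⟩ := hδx
      have h2 : Function.Surjective x := by
        intro v
        obtain ⟨w, hw⟩ := LinearMap.range_eq_top.mp h1 v
        exact ⟨Z' w, by rw [← hw, hZ']; rfl⟩
      have h3 : Function.Surjective (x ^ (p ^ n)) := by
        rw [Module.End.coe_pow]
        exact h2.iterate _
      rw [hxq] at h3
      obtain ⟨v, hv⟩ := exists_ne (0 : V)
      obtain ⟨w, hw⟩ := h3 v
      exact hv (by rw [← hw]; rfl)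
  have hT₁J : T₁ ∈ J := by
    have h1 : T₁ = -(δ - T₁) := by rw [hδ0]; abel
    rw [h1]
    exact J.neg_mem hD
  -- reduce exponents mod p
  have hap : a ^ p - 1 = x ^ p := by
    have := sub_one_pow (F := F) (p := p) a 1
    rw [pow_one] at this
    exact this.symm
  have hred : ∀ s ∈ Fx, Φ s - (a ^ (k s % p) - 1) ∈ J := by
    intro s hs
    rw [(hk s hs).1]
    refine ⟨a ^ (k s % p) * ∑ i ∈ Finset.range (k s / p), (a ^ p) ^ i, ?_⟩
    rw [LinearMap.mulLeft_apply, ← mul_assoc, ← ((hcax.pow_pow (k s % p) p).eq), mul_assoc, ← hap,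
      mul_geom_sum, mul_sub, mul_one, ← pow_mul, ← pow_add, Nat.mod_add_div]
    abel
  set T₃ : Module.End F V := ∑ s ∈ Fx, (a ^ (k s % p) - 1) with hT₃
  have hT₃J : T₃ ∈ J := by
    have h1 : T₃ = T₁ - ∑ s ∈ Fx, (Φ s - (a ^ (k s % p) - 1)) := by
      rw [hT₃, hT₁, ← Finset.sum_sub_distrib]
      refine Finset.sum_congr rfl fun s _ => ?_
      abel
    rw [h1]
    exact J.sub_mem hT₁J (J.sum_mem hred)
  obtain ⟨Z₃, hZ₃⟩ := hT₃J
  set h₃ : F[X] := ∑ s ∈ Fx, (X ^ (k s % p) - 1) with hh₃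
  have hev : aeval a h₃ = x ^ p * Z₃ := by
    rw [hh₃, map_sum]
    simp only [map_sub, map_pow, aeval_X, map_one]
    rw [← hT₃]
    exact hZ₃.symm
  have hcard : ¬ p ∣ Fx.card := by
    have h1 := (P.isPGroup').card_modEq_card_fixedPoints (G ⧸ C)
    have h2 : Nat.card (MulAction.fixedPoints (P : Subgroup G) (G ⧸ C)) = Fx.card := by
      rw [Nat.card_eq_fintype_card, Fintype.card_subtype]
    rw [h2] at h1
    intro h3
    have h4 : p ∣ Nat.card (G ⧸ C) := (Nat.modEq_zero_iff_dvd.mp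
      (h1.trans (Nat.modEq_zero_iff_dvd.mpr h3)))
    have h5 : (P : Subgroup G) ≤ C := by
      intro u hu
      rw [hC, Subgroup.mem_centralizer_singleton_iff]
      exact hPab u hu
    exact P.not_dvd_index (h4.trans (Subgroup.index_dvd_of_le h5))
  have hh0 : h₃ ≠ 0 := by
    intro h
    have h1 := congrArg (fun f : F[X] => f.coeff 0) h
    simp only [hh₃, finsetSum_coeff, coeff_sub, coeff_X_pow, coeff_one_zero, coeff_zero] at h1
    have h2 : ∀ s ∈ Fx, ((if 0 = k s % p then (1 : F) else 0) - 1) = -1 := by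
      intro s hs
      rw [if_neg]
      · simp
      · intro h0
        exact (hk s hs).2 (Nat.dvd_of_mod_eq_zero h0.symm)
    rw [Finset.sum_congr rfl h2, Finset.sum_const, nsmul_eq_mul, mul_neg, mul_one, neg_eq_zero,
      CharP.cast_eq_zero_iff F p] at h1
    exact hcard h1
  have hdeg : h₃.natDegree < p := by
    have h1 : h₃.natDegree ≤ p - 1 := by
      apply natDegree_sum_le_of_forall_le
      intro s _
      have h2 : k s % p < p := Nat.mod_lt _ hp.pos
      calc (X ^ (k s % p) - 1 : F[X]).natDegree ≤ max (X ^ (k s % p) : F[X]).natDegree (1 : F[X]).natDegree :=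
            natDegree_sub_le _ _
        _ ≤ p - 1 := by
            rw [natDegree_X_pow, natDegree_one]
            omega
    omega
  exact no_small_poly p a t ht0 ht1 (by omega) h₃ hh0 hdeg Z₃ hev

end Cfsg.Agent.Lib.Helper2.CycTI
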