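import Mathlib

set_option autoImplicit false

namespace Cfsg.Agent.Lib.Helper2

section

variable {G : Type*} [Group G] (K H : Subgroup G) [hK : K.Normal]

theorem exists_mul_of_sup_eq_top (hKH' : K ⊔ H = ⊤) (g : G) : ∃ k ∈ K, ∃ h ∈ H, g = k * h := by
  have : g ∈ K ⊔ H := hKH' ▸ Subgroup.mem_top g
  rw [← SetLike.mem_coe, Subgroup.normal_mul] at this
  obtain ⟨k, hk, h, hh, rfl⟩ := this
  exact ⟨k, hk, h, hh, rfl⟩

variable [Finite G]

/-- In a Frobenius group, every element of the coset `K h`, `h ≠ 1`, is `K`-conjugate to `h`. -/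
theorem frobenius_conj (hfpf : ∀ h ∈ H, h ≠ 1 → ∀ k ∈ K, h * k = k * h → k = 1)
    {h : G} (hh : h ∈ H) (h1 : h ≠ 1) {k' : G} (hk' : k' ∈ K) :
    ∃ m ∈ K, m * (k' * h) * m⁻¹ = h := by
  let φ : K → K := fun m => ⟨(m : G)⁻¹ * (h * m * h⁻¹), K.mul_mem (K.inv_mem m.2) (hK.conj_mem m m.2 h)⟩
  have hinj : Function.Injective φ := by
    intro m n hmn
    have h2 : (m : G)⁻¹ * (h * m * h⁻¹) = (n : G)⁻¹ * (h * n * h⁻¹) := congrArg Subtype.val hmn
    have h3 : h * ((n : G) * (m : G)⁻¹) = ((n : G) * (m : G)⁻¹) * h := by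
      have h4 : (n : G) * ((m : G)⁻¹ * (h * m * h⁻¹)) * (h * (m : G)⁻¹) =
          (n : G) * ((n : G)⁻¹ * (h * n * h⁻¹)) * (h * (m : G)⁻¹) := by rw [h2]
      have e1 : (n : G) * ((m : G)⁻¹ * (h * m * h⁻¹)) * (h * (m : G)⁻¹) = (n : G) * (m : G)⁻¹ * h := by
        group
      have e2 : (n : G) * ((n : G)⁻¹ * (h * n * h⁻¹)) * (h * (m : G)⁻¹) = h * ((n : G) * (m : G)⁻¹) := by
        group
      rw [e1, e2] at h4
      exact h4.symm
    have h5 := hfpf h hh h1 _ (K.mul_mem n.2 (K.inv_mem m.2)) h3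
    exact Subtype.ext (mul_inv_eq_one.mp h5).symm
  have hsurj : Function.Surjective φ := Finite.surjective_of_injective hinj
  obtain ⟨m, hm⟩ := hsurj ⟨k', hk'⟩
  have hm' : (m : G)⁻¹ * (h * m * h⁻¹) = k' := congrArg Subtype.val hm
  refine ⟨m, m.2, ?_⟩
  rw [← hm']
  group

/-- In a Frobenius group, an element outside the kernel centralizes no nontrivial element of the
kernel. -/
theorem frobenius_centralizer (hKH' : K ⊔ H = ⊤)
    (hfpf : ∀ h ∈ H, h ≠ 1 → ∀ k ∈ K, h * k = k * h → k = 1)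
    {y : G} (hy : y ∉ K) {k : G} (hk : k ∈ K) (hyk : y * k = k * y) : k = 1 := by
  obtain ⟨k', hk', h, hh, rfl⟩ := exists_mul_of_sup_eq_top K H hKH' y
  have h1 : h ≠ 1 := by
    rintro rfl
    exact hy (by simpa using hk')
  obtain ⟨m, hm, hmh⟩ := frobenius_conj K H hfpf hh h1 hk'
  have h2 : h * (m * k * m⁻¹) = (m * k * m⁻¹) * h := by
    rw [← hmh]
    calc m * (k' * h) * m⁻¹ * (m * k * m⁻¹) = m * ((k' * h) * k) * m⁻¹ := by group
      _ = m * (k * (k' * h)) * m⁻¹ := by rw [hyk]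
      _ = m * k * m⁻¹ * (m * (k' * h) * m⁻¹) := by group
  have h3 := hfpf h hh h1 _ (hK.conj_mem k hk m) h2
  have : k = m⁻¹ * (m * k * m⁻¹) * m := by group
  rw [this, h3]
  group

end

end Cfsg.Agent.Lib.Helper2
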