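import Mathlib
import Cfsg.Agent.Lib.Helper2.GCol

/-! The structure of a block on an abelian group with a semiregular family of automorphisms. -/

set_option autoImplicit false

namespace Cfsg.Agent.Lib.Helper2.GCol

open scoped ComplexConjugate Classical
open Cfsg.Agent.Lib.Helper2.AbDual Cfsg.Agent.Lib.Helper2.AbVec

variable {A : Type*} [Group A] [Fintype A] {ι : Type*} [Fintype ι]

/-- the coherent structure -/
structure Coh (D : ColData A ι) where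
  δ : ℤ
  d₀ : ℤ
  ζ : (A →* ℂˣ) → ι
  f : ι → ℤ
  hδ : δ = 1 ∨ δ = -1
  hrep : ∀ ψ, ψ ≠ 1 → ∀ χ, D.mz ψ χ = f χ + (if χ = ζ ψ then δ else 0)
  hd : ∀ ψ, ψ ≠ 1 → f (ζ ψ) = d₀
  hζ : ∀ ψ ψ', ψ ≠ 1 → ψ' ≠ 1 → (ζ ψ = ζ ψ' ↔ ∃ i, i < D.m ∧ D.act i ψ' = ψ)

theorem exists_coh (D : ColData A ι) (hcard : D.m + 1 < Fintype.card A)
    (deg : ι → ℤ) (hdeg : ∀ χ, 0 < deg χ)
    (hreg : ∀ y, y ≠ 1 → ∑ χ, (deg χ : ℂ) * conj (D.c χ y) = 0) : Nonempty (Coh D) := by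
  haveI := finite_dual D.hc
  letI := Fintype.ofFinite (A →* ℂˣ)
  have hcd : Fintype.card (A →* ℂˣ) = Fintype.card A := by
    rw [← Nat.card_eq_fintype_card, card_dual D.hc, Nat.card_eq_fintype_card]
  -- two inequivalent characters
  obtain ⟨ψ₀, hψ₀⟩ : ∃ ψ₀ : A →* ℂˣ, ψ₀ ≠ 1 := by
    by_contra hcon
    push Not at hcon
    have : Fintype.card (A →* ℂˣ) ≤ 1 :=
      Fintype.card_le_one_iff.mpr (fun a b => (hcon a).trans (hcon b).symm)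
    omega
  obtain ⟨ψ₁, hψ₁, hψ₁'⟩ : ∃ ψ₁ : A →* ℂˣ, ψ₁ ≠ 1 ∧ ¬ ∃ i, i < D.m ∧ D.act i ψ₀ = ψ₁ := by
    by_contra hcon
    push Not at hcon
    have hsub : (Finset.univ : Finset (A →* ℂˣ)) ⊆
        insert 1 ((Finset.range D.m).image (fun i => D.act i ψ₀)) := by
      intro ψ _
      rw [Finset.mem_insert, Finset.mem_image]
      by_cases h : ψ = 1
      · exact Or.inl h
      · obtain ⟨i, hi, hi'⟩ := hcon ψ h
        exact Or.inr ⟨i, Finset.mem_range.mpr hi, hi'⟩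
    have h1 := Finset.card_le_card hsub
    have h2 := Finset.card_insert_le (1 : A →* ℂˣ) ((Finset.range D.m).image (fun i => D.act i ψ₀))
    have h3 : ((Finset.range D.m).image (fun i => D.act i ψ₀)).card ≤ D.m := by
      calc _ ≤ (Finset.range D.m).card := Finset.card_image_le
        _ = D.m := Finset.card_range _
    rw [Finset.card_univ, hcd] at h1
    omega
  set v : {ψ : A →* ℂˣ // ψ ≠ 1} → ι → ℤ := fun j χ => D.mz j.1 χ with hv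
  have hG : ∀ j k, ∑ χ, v j χ * v k χ = (D.m : ℤ) + 1 ∨ ∑ χ, v j χ * v k χ = (D.m : ℤ) := by
    intro j k
    have := D.gram j.2 k.2
    simp only [hv]
    rw [this]
    split_ifs
    · left; rfl
    · right; ring
  have hGs : ∀ j, ∑ χ, v j χ * v j χ = (D.m : ℤ) + 1 := by
    intro j
    have := D.gram j.2 j.2
    simp only [hv]
    rw [this, if_pos]
    obtain ⟨i0, hi0, h1⟩ := D.hone
    refine ⟨i0, hi0, ?_⟩
    ext y
    rw [ColData.act_apply, h1, MulAut.one_apply]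
  have horth : ∀ j, ∑ χ, v j χ * deg χ = 0 := by
    intro j
    have := D.reg (fun χ => (deg χ : ℂ)) hreg j.1
    simp only [hv]
    exact_mod_cast this
  have h01 : ∑ χ, v ⟨ψ₁, hψ₁⟩ χ * v ⟨ψ₀, hψ₀⟩ χ = (D.m : ℤ) := by
    have := D.gram hψ₁ hψ₀
    simp only [hv]
    rw [this, if_neg hψ₁']
    ring
  obtain ⟨δ, ζ, f, d, hδ, hrep, hd, hζ⟩ :=
    coherence v deg (D.m : ℤ) hdeg horth hG hGs ⟨ψ₀, hψ₀⟩ ⟨ψ₁, hψ₁⟩ h01
  refine ⟨⟨δ, d, fun ψ => if h : ψ ≠ 1 then ζ ⟨ψ, h⟩ else ζ ⟨ψ₀, hψ₀⟩, f, hδ, ?_, ?_, ?_⟩⟩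
  · intro ψ hψ χ
    simp only [dif_pos hψ]
    exact hrep ⟨ψ, hψ⟩ χ
  · intro ψ hψ
    simp only [dif_pos hψ]
    exact hd ⟨ψ, hψ⟩
  · intro ψ ψ' hψ hψ'
    simp only [dif_pos hψ, dif_pos hψ']
    rw [hζ ⟨ψ, hψ⟩ ⟨ψ', hψ'⟩]
    simp only [hv]
    rw [D.gram hψ hψ']
    split_ifs with h
    · simp [h]
    · simp [h]

namespace Coh

variable {D : ColData A ι} (K : Coh D)

theorem δ_sq : K.δ * K.δ = 1 := by
  rcases K.hδ with h | h <;> rw [h] <;> norm_num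

/-- the values on the nonidentity elements -/
theorem value [Fintype (A →* ℂˣ)] (χ : ι) {y : A} (hy : y ≠ 1) :
    D.c χ y = -(K.f χ : ℂ) + (K.δ : ℂ) *
      ∑ ψ ∈ Finset.univ.filter (fun ψ : A →* ℂˣ => ψ ≠ 1 ∧ K.ζ ψ = χ), ((ψ y : ℂˣ) : ℂ) := by
  rw [D.value χ hy]
  have h1 : ∀ ψ : A →* ℂˣ, (D.mz ψ χ : ℂ) * ((ψ y : ℂˣ) : ℂ) =
      (K.f χ : ℂ) * ((ψ y : ℂˣ) : ℂ) - (if ψ = 1 then (K.f χ : ℂ) else 0) +
        (K.δ : ℂ) * (if ψ ≠ 1 ∧ K.ζ ψ = χ then ((ψ y : ℂˣ) : ℂ) else 0) := by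
    intro ψ
    by_cases hψ : ψ = 1
    · rw [hψ, D.mz_one]
      simp
    · rw [K.hrep ψ hψ χ, if_neg hψ]
      by_cases h : χ = K.ζ ψ
      · rw [if_pos h, if_pos ⟨hψ, h.symm⟩]; push_cast; ring
      · rw [if_neg h, if_neg (fun hh => h hh.2.symm)]; push_cast; ring
  simp only [h1, Finset.sum_add_distrib, Finset.sum_sub_distrib, ← Finset.mul_sum,
    sum_dual D.hc hy, Finset.sum_ite_eq' Finset.univ (1 : A →* ℂˣ), Finset.mem_univ, if_true,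
    ← Finset.sum_filter]
  ring

/-- orthogonality to regular columns -/
theorem reg (e : ι → ℂ) (he : ∀ y, y ≠ 1 → ∑ χ, e χ * conj (D.c χ y) = 0) {ψ : A →* ℂˣ}
    (hψ : ψ ≠ 1) : ∑ χ, (K.f χ : ℂ) * e χ + (K.δ : ℂ) * e (K.ζ ψ) = 0 := by
  have h := D.reg e he ψ
  have h1 : ∀ χ, (D.mz ψ χ : ℂ) * e χ =
      (K.f χ : ℂ) * e χ + (K.δ : ℂ) * (if χ = K.ζ ψ then e χ else 0) := by
    intro χ
    rw [K.hrep ψ hψ χ]
    split_ifs <;> push_cast <;> ring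
  simp only [h1, Finset.sum_add_distrib, ← Finset.mul_sum,
    Finset.sum_ite_eq' Finset.univ (K.ζ ψ), Finset.mem_univ, if_true] at h
  exact h

theorem reg_eq (e : ι → ℂ) (he : ∀ y, y ≠ 1 → ∑ χ, e χ * conj (D.c χ y) = 0) {ψ ψ' : A →* ℂˣ}
    (hψ : ψ ≠ 1) (hψ' : ψ' ≠ 1) : e (K.ζ ψ) = e (K.ζ ψ') := by
  have h1 := K.reg e he hψ
  have h2 := K.reg e he hψ'
  have h3 : (K.δ : ℂ) * (e (K.ζ ψ) - e (K.ζ ψ')) = 0 := by linear_combination h1 - h2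
  have hδ0 : (K.δ : ℂ) ≠ 0 := by
    rcases K.hδ with h | h <;> rw [h] <;> norm_num
  rcases mul_eq_zero.mp h3 with h | h
  · exact absurd h hδ0
  · linear_combination h

/-- the exceptional members -/
noncomputable def Y [Fintype (A →* ℂˣ)] : Finset ι :=
  (Finset.univ.filter (fun ψ : A →* ℂˣ => ψ ≠ 1)).image K.ζ

theorem mem_Y [Fintype (A →* ℂˣ)] (χ : ι) : χ ∈ K.Y ↔ ∃ ψ, ψ ≠ 1 ∧ K.ζ ψ = χ := by
  unfold Y
  simp only [Finset.mem_image, Finset.mem_filter, Finset.mem_univ, true_and]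

theorem f_of_mem_Y [Fintype (A →* ℂˣ)] {χ : ι} (h : χ ∈ K.Y) : K.f χ = K.d₀ := by
  obtain ⟨ψ, hψ, rfl⟩ := (K.mem_Y χ).mp h
  exact K.hd ψ hψ

theorem fiber_card [Fintype (A →* ℂˣ)] {ψ₁ : A →* ℂˣ} (hψ₁ : ψ₁ ≠ 1) :
    ((Finset.univ.filter (fun ψ : A →* ℂˣ => ψ ≠ 1)).filter (fun ψ => K.ζ ψ = K.ζ ψ₁)).card =
      D.m := by
  have h3 : (Finset.univ.filter (fun ψ : A →* ℂˣ => ψ ≠ 1)).filter (fun ψ => K.ζ ψ = K.ζ ψ₁) =
      (Finset.range D.m).image (fun i => D.act i ψ₁) := by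
    ext ψ
    simp only [Finset.mem_filter, Finset.mem_univ, true_and, Finset.mem_image, Finset.mem_range]
    constructor
    · rintro ⟨hψ, h⟩
      exact (K.hζ ψ ψ₁ hψ hψ₁).mp h
    · rintro ⟨i, hi, rfl⟩
      exact ⟨D.act_ne_one i hψ₁, (K.hζ _ ψ₁ (D.act_ne_one i hψ₁) hψ₁).mpr ⟨i, hi, rfl⟩⟩
  rw [h3, Finset.card_image_of_injOn, Finset.card_range]
  intro i hi j hj h
  exact D.act_inj hψ₁ (Finset.mem_range.mp hi) (Finset.mem_range.mp hj) h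

theorem card_Y [Fintype (A →* ℂˣ)] : K.Y.card * D.m = Fintype.card A - 1 := by
  have hcd : Fintype.card (A →* ℂˣ) = Fintype.card A := by
    rw [← Nat.card_eq_fintype_card, card_dual D.hc, Nat.card_eq_fintype_card]
  have h1 : (Finset.univ.filter (fun ψ : A →* ℂˣ => ψ ≠ 1)).card = Fintype.card A - 1 := by
    rw [Finset.filter_ne' Finset.univ (1 : A →* ℂˣ), Finset.card_erase_of_mem (Finset.mem_univ _),
      Finset.card_univ, hcd]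
  rw [← h1, Finset.card_eq_sum_card_image K.ζ]
  have h2 : ∀ χ ∈ (Finset.univ.filter (fun ψ : A →* ℂˣ => ψ ≠ 1)).image K.ζ,
      ((Finset.univ.filter (fun ψ : A →* ℂˣ => ψ ≠ 1)).filter (fun ψ => K.ζ ψ = χ)).card = D.m := by
    intro χ hχ
    obtain ⟨ψ₁, hψ₁, rfl⟩ := (K.mem_Y χ).mp hχ
    have h3 : (Finset.univ.filter (fun ψ : A →* ℂˣ => ψ ≠ 1)).filter (fun ψ => K.ζ ψ = K.ζ ψ₁) =
        (Finset.range D.m).image (fun i => D.act i ψ₁) := by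
      ext ψ
      simp only [Finset.mem_filter, Finset.mem_univ, true_and, Finset.mem_image, Finset.mem_range]
      constructor
      · rintro ⟨hψ, h⟩
        exact (K.hζ ψ ψ₁ hψ hψ₁).mp h
      · rintro ⟨i, hi, rfl⟩
        exact ⟨D.act_ne_one i hψ₁, (K.hζ _ ψ₁ (D.act_ne_one i hψ₁) hψ₁).mpr ⟨i, hi, rfl⟩⟩
    rw [h3, Finset.card_image_of_injOn, Finset.card_range]
    intro i hi j hj h
    exact D.act_inj hψ₁ (Finset.mem_range.mp hi) (Finset.mem_range.mp hj) h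
  rw [Finset.sum_congr rfl h2, Finset.sum_const, smul_eq_mul]
  rfl

/-- the norm identity -/
theorem norm [Fintype (A →* ℂˣ)] {ψ : A →* ℂˣ} (hψ : ψ ≠ 1) :
    (K.d₀ + K.δ) ^ 2 + ((K.Y.card : ℤ) - 1) * K.d₀ ^ 2 + ∑ χ ∈ K.Yᶜ, K.f χ ^ 2 = D.m + 1 := by
  have h := D.gram hψ hψ
  obtain ⟨i0, hi0, h10⟩ := D.hone
  rw [if_pos ⟨i0, hi0, by ext y; rw [ColData.act_apply, h10, MulAut.one_apply]⟩] at h
  rw [← h, ← Finset.sum_add_sum_compl K.Y]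
  have hmem : K.ζ ψ ∈ K.Y := (K.mem_Y _).mpr ⟨ψ, hψ, rfl⟩
  have h1 : ∑ χ ∈ K.Yᶜ, D.mz ψ χ * D.mz ψ χ = ∑ χ ∈ K.Yᶜ, K.f χ ^ 2 := by
    apply Finset.sum_congr rfl
    intro χ hχ
    rw [K.hrep ψ hψ χ, if_neg]
    · ring
    · rintro rfl
      exact (Finset.mem_compl.mp hχ) hmem
  have h2 : ∑ χ ∈ K.Y, D.mz ψ χ * D.mz ψ χ =
      (K.d₀ + K.δ) ^ 2 + ((K.Y.card : ℤ) - 1) * K.d₀ ^ 2 := by
    rw [← Finset.add_sum_erase K.Y _ hmem, K.hrep ψ hψ, if_pos rfl, K.hd ψ hψ]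
    have h3 : ∑ χ ∈ K.Y.erase (K.ζ ψ), D.mz ψ χ * D.mz ψ χ =
        ∑ χ ∈ K.Y.erase (K.ζ ψ), K.d₀ ^ 2 := by
      apply Finset.sum_congr rfl
      intro χ hχ
      rw [Finset.mem_erase] at hχ
      rw [K.hrep ψ hψ χ, if_neg hχ.1, K.f_of_mem_Y hχ.2]
      ring
    rw [h3, Finset.sum_const, Finset.card_erase_of_mem hmem, nsmul_eq_mul]
    have hpos : 1 ≤ K.Y.card := Finset.card_pos.mpr ⟨_, hmem⟩
    push_cast [Nat.cast_sub hpos]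
    ring
  rw [h1, h2]

end Coh

end Cfsg.Agent.Lib.Helper2.GCol
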