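import Mathlib
import Cfsg.Prelude.Def_Blocks
import Cfsg.Prelude.Def_Solvable

/-! Abelian Sylow subgroups with `N(P)/C(P)` semiregular (not necessarily cyclic): group theory. -/

set_option autoImplicit false

namespace Cfsg.Agent.Lib.Helper2.GSyl

open Subgroup

variable {G : Type*} [Group G] [Finite G] {p : ℕ}

/-- the hypotheses; `e 0, …, e (m-1)` enumerate the automorphisms induced by `N(P)` -/
structure Hyp (P : Sylow p G) (m : ℕ) (e : ℕ → MulAut ↥(P : Subgroup G)) : Prop where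
  hab : ∀ a b : ↥(P : Subgroup G), a * b = b * a
  hone : ∃ i, i < m ∧ e i = 1
  hfree : ∀ i j, i < m → j < m → ∀ y, y ≠ 1 → e i y = e j y → i = j
  hfrob : ∀ y : G, y ∈ (P : Subgroup G) → y ≠ 1 →
    centralizer ({y} : Set G) ⊓ normalizer ((P : Subgroup G) : Set G) =
      centralizer ((P : Subgroup G) : Set G)
  hconj : ∀ y y' : ↥(P : Subgroup G), IsConj (y : G) (y' : G) ↔ ∃ i, i < m ∧ y' = e i y
  hnorm : ∀ n ∈ normalizer ((P : Subgroup G) : Set G), ∃ i, i < m ∧
    ∀ y : ↥(P : Subgroup G), n * y * n⁻¹ = ((e i y : ↥(P : Subgroup G)) : G)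

theorem hom_apply {P : Sylow p G} (n : ↥(normalizer ((P : Subgroup G) : Set G)))
    (y : ↥(P : Subgroup G)) :
    (((P : Subgroup G).normalizerMonoidHom n y : ↥(P : Subgroup G)) : G) = n * y * (n : G)⁻¹ := rfl

theorem exists_hyp [Fact p.Prime] (P : Sylow p G)
    (hab : ∀ a b : ↥(P : Subgroup G), a * b = b * a)
    (hfrob : ∀ y : G, y ∈ (P : Subgroup G) → y ≠ 1 →
      centralizer ({y} : Set G) ⊓ normalizer ((P : Subgroup G) : Set G) =
        centralizer ((P : Subgroup G) : Set G)) :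
    ∃ (m : ℕ) (e : ℕ → MulAut ↥(P : Subgroup G)), Hyp P m e := by
  classical
  set φ := (P : Subgroup G).normalizerMonoidHom with hφ
  haveI : Finite φ.range := Set.finite_range φ
  set m := Nat.card φ.range with hm
  let eq : φ.range ≃ Fin m := Finite.equivFin φ.range
  let e : ℕ → MulAut ↥(P : Subgroup G) := fun i =>
    if h : i < m then ((eq.symm ⟨i, h⟩ : φ.range) : MulAut ↥(P : Subgroup G)) else 1
  have he : ∀ i (h : i < m), e i = ((eq.symm ⟨i, h⟩ : φ.range) : MulAut ↥(P : Subgroup G)) := by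
    intro i h
    simp only [e, dif_pos h]
  have hidx : ∀ a : φ.range, ∃ i, i < m ∧ e i = (a : MulAut ↥(P : Subgroup G)) := by
    intro a
    refine ⟨(eq a).1, (eq a).2, ?_⟩
    rw [he _ (eq a).2]
    simp
  have hnorm : ∀ n ∈ normalizer ((P : Subgroup G) : Set G), ∃ i, i < m ∧
      ∀ y : ↥(P : Subgroup G), n * y * n⁻¹ = ((e i y : ↥(P : Subgroup G)) : G) := by
    intro n hn
    obtain ⟨i, hi, hi'⟩ := hidx ⟨φ ⟨n, hn⟩, ⟨_, rfl⟩⟩
    refine ⟨i, hi, fun y => ?_⟩
    rw [hi']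
    rfl
  have hrep : ∀ i, i < m → ∃ n : ↥(normalizer ((P : Subgroup G) : Set G)), e i = φ n := by
    intro i hi
    obtain ⟨n, hn⟩ := (eq.symm ⟨i, hi⟩ : φ.range).2
    exact ⟨n, by rw [he i hi, hn]⟩
  refine ⟨m, e, hab, ?_, ?_, hfrob, ?_, hnorm⟩
  · obtain ⟨i, hi, hi'⟩ := hidx 1
    exact ⟨i, hi, hi'⟩
  · intro i j hi hj y hy hyy
    obtain ⟨ni, hni⟩ := hrep i hi
    obtain ⟨nj, hnj⟩ := hrep j hj
    have hy' : (y : G) ≠ 1 := fun h0 => hy (Subtype.ext h0)
    have h1 : (ni : G) * y * (ni : G)⁻¹ = nj * y * (nj : G)⁻¹ := by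
      have := congrArg Subtype.val hyy
      rw [hni, hnj] at this
      exact this
    have h2 : ((nj⁻¹ * ni : ↥(normalizer ((P : Subgroup G) : Set G))) : G) ∈
        centralizer ({(y : G)} : Set G) ⊓ normalizer ((P : Subgroup G) : Set G) := by
      refine mem_inf.mpr ⟨?_, (nj⁻¹ * ni).2⟩
      rw [mem_centralizer_singleton_iff]
      push_cast
      have h3 : (ni : G) * y = nj * y * (nj : G)⁻¹ * ni := by
        rw [← h1]; group
      calc (nj : G)⁻¹ * ni * y = (nj : G)⁻¹ * (ni * y) := by group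
        _ = (nj : G)⁻¹ * (nj * y * (nj : G)⁻¹ * ni) := by rw [h3]
        _ = y * ((nj : G)⁻¹ * ni) := by group
    rw [hfrob y y.2 hy'] at h2
    have h3 : φ (nj⁻¹ * ni) = 1 := by
      apply MonoidHom.mem_ker.mp
      rw [hφ, normalizerMonoidHom_ker, mem_subgroupOf]
      exact h2
    have h4 : e i = e j := by
      rw [hni, hnj]
      rw [map_mul, map_inv] at h3
      exact (inv_mul_eq_one.mp h3).symm
    rw [he i hi, he j hj] at h4
    have h5 := eq.symm.injective (Subtype.ext h4)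
    exact congrArg Fin.val h5
  · intro y y'
    haveI : IsMulCommutative ↥(P : Subgroup G) := ⟨⟨hab⟩⟩
    constructor
    · intro hc
      obtain ⟨c, hc⟩ := _root_.isConj_iff.mp hc
      have h1 : (c⁻¹)⁻¹ * (y : G) * c⁻¹ ∈ P := by
        rw [inv_inv, hc]; exact y'.2
      obtain ⟨n, hn, hn'⟩ := P.conj_eq_normalizer_conj_of_mem (y : G) c⁻¹ y.2 h1
      rw [inv_inv, hc] at hn'
      obtain ⟨i, hi, hi'⟩ := hnorm _ (inv_mem hn)
      refine ⟨i, hi, Subtype.ext ?_⟩
      rw [← hi' y, inv_inv, hn']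
    · rintro ⟨i, hi, rfl⟩
      obtain ⟨n, hn⟩ := hrep i hi
      rw [hn]
      exact _root_.isConj_iff.mpr ⟨n, rfl⟩

end Cfsg.Agent.Lib.Helper2.GSyl
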