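import Mathlib

/-! Twelve arcs on the unit circle. -/

set_option autoImplicit false

namespace Cfsg.Agent.Lib.Helper2.Jor

open Real

noncomputable def cst : ℝ := Real.sqrt 3 / 2

theorem cst_sq : cst ^ 2 = 3 / 4 := by
  unfold cst
  rw [div_pow, Real.sq_sqrt (by norm_num)]
  norm_num

theorem cst_gt : (1 : ℝ) / 2 < cst := by
  have h := cst_sq
  have h0 : 0 ≤ cst := by unfold cst; positivity
  nlinarith

theorem cst_le : cst ≤ 1 := by
  have h := cst_sq
  have h0 : 0 ≤ cst := by unfold cst; positivity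
  nlinarith

noncomputable def tpar (z : ℂ) : ℝ := (π - Complex.arg z) * (6 / π)

theorem tpar_nonneg (z : ℂ) : 0 ≤ tpar z := by
  unfold tpar
  have := Complex.arg_le_pi z
  have hpi := Real.pi_pos
  apply mul_nonneg (by linarith) (by positivity)

theorem tpar_lt (z : ℂ) : tpar z < 12 := by
  unfold tpar
  have := Complex.neg_pi_lt_arg z
  have hpi := Real.pi_pos
  have h1 : (π - Complex.arg z) * (6 / π) < (2 * π) * (6 / π) := by
    apply mul_lt_mul_of_pos_right (by linarith) (by positivity)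
  have h2 : (2 * π) * (6 / π) = 12 := by field_simp; norm_num
  linarith

noncomputable def arc (z : ℂ) : Fin 12 := ⟨⌊tpar z⌋₊ % 12, Nat.mod_lt _ (by norm_num)⟩

theorem arc_close {z w : ℂ} (hz : ‖z‖ = 1) (hw : ‖w‖ = 1) (h : arc z = arc w) :
    ‖z⁻¹ * w - (cst : ℂ)‖ < 1 / 2 := by
  have hpi := Real.pi_pos
  have h1 : ⌊tpar z⌋₊ = ⌊tpar w⌋₊ := by
    have h2 : ⌊tpar z⌋₊ % 12 = ⌊tpar w⌋₊ % 12 := by
      have := congrArg Fin.val h
      exact this
    have h3 : ⌊tpar z⌋₊ < 12 := (Nat.floor_lt (tpar_nonneg z)).mpr (by exact_mod_cast tpar_lt z)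
    have h4 : ⌊tpar w⌋₊ < 12 := (Nat.floor_lt (tpar_nonneg w)).mpr (by exact_mod_cast tpar_lt w)
    rwa [Nat.mod_eq_of_lt h3, Nat.mod_eq_of_lt h4] at h2
  have h5 : |tpar z - tpar w| < 1 := by
    have a1 := Nat.floor_le (tpar_nonneg z)
    have a2 := Nat.lt_floor_add_one (tpar z)
    have a3 := Nat.floor_le (tpar_nonneg w)
    have a4 := Nat.lt_floor_add_one (tpar w)
    rw [h1] at a1 a2
    rw [abs_lt]
    constructor <;> linarith
  set θ : ℝ := Complex.arg w - Complex.arg z with hθ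
  have h6 : |θ| < π / 6 := by
    have h7 : tpar z - tpar w = θ * (6 / π) := by
      unfold tpar
      rw [hθ]
      ring
    rw [h7, abs_mul, abs_of_pos (by positivity : (0 : ℝ) < 6 / π)] at h5
    have h8 : |θ| = |θ| * (6 / π) * (π / 6) := by field_simp
    rw [h8]
    have : |θ| * (6 / π) * (π / 6) < 1 * (π / 6) :=
      mul_lt_mul_of_pos_right h5 (by positivity)
    linarith
  have h9 : z⁻¹ * w = Complex.exp (θ * Complex.I) := by
    have hz' := Complex.norm_mul_exp_arg_mul_I z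
    have hw' := Complex.norm_mul_exp_arg_mul_I w
    rw [hz, Complex.ofReal_one, one_mul] at hz'
    rw [hw, Complex.ofReal_one, one_mul] at hw'
    conv_lhs => rw [← hz', ← hw']
    rw [← Complex.exp_neg, ← Complex.exp_add, hθ]
    congr 1
    push_cast
    ring
  have h10 : cst < Real.cos θ := by
    rw [← Real.cos_abs θ]
    have : Real.cos (π / 6) < Real.cos |θ| :=
      Real.cos_lt_cos_of_nonneg_of_le_pi (abs_nonneg θ) (by linarith) h6
    rw [Real.cos_pi_div_six] at this
    exact this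
  have h11 : ‖z⁻¹ * w - (cst : ℂ)‖ ^ 2 = (Real.cos θ - cst) ^ 2 + Real.sin θ ^ 2 := by
    rw [h9, Complex.exp_mul_I, ← Complex.ofReal_cos, ← Complex.ofReal_sin, Complex.sq_norm,
      Complex.normSq_apply]
    simp only [Complex.sub_re, Complex.add_re, Complex.ofReal_re, Complex.mul_re, Complex.I_re,
      Complex.ofReal_im, Complex.I_im, Complex.sub_im, Complex.add_im, Complex.mul_im]
    ring
  have h12 : ‖z⁻¹ * w - (cst : ℂ)‖ ^ 2 < 1 / 4 := by
    rw [h11]
    have := Real.sin_sq_add_cos_sq θ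
    have hc := cst_sq
    have hc0 := cst_gt
    nlinarith
  nlinarith [norm_nonneg (z⁻¹ * w - (cst : ℂ))]

end Cfsg.Agent.Lib.Helper2.Jor
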