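import Mathlib
import Cfsg.Agent.Lib.Helper2.AbDual

/-! Fourier idempotents of a finite abelian group acting unitarily. -/

set_option autoImplicit false

namespace Cfsg.Agent.Lib.Helper2.Jor

open scoped ComplexConjugate InnerProductSpace
open Cfsg.Agent.Lib.Helper2

variable {E : Type*} [NormedAddCommGroup E] [InnerProductSpace ℂ E] [CompleteSpace E]
variable {H : Type*} [Group H] [Fintype H] (Ψ : H →* (E →L[ℂ] E))

noncomputable def idem (lam : H →* ℂˣ) : E →L[ℂ] E :=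
  (Fintype.card H : ℂ)⁻¹ • ∑ h : H, (((lam h)⁻¹ : ℂˣ) : ℂ) • Ψ h

theorem card_ne_zero' : (Fintype.card H : ℂ) ≠ 0 := by
  exact_mod_cast Fintype.card_ne_zero

theorem mul_idem (lam : H →* ℂˣ) (k : H) :
    Ψ k * idem Ψ lam = ((lam k : ℂˣ) : ℂ) • idem Ψ lam := by
  unfold idem
  rw [mul_smul_comm, smul_comm]
  congr 1
  rw [Finset.mul_sum, Finset.smul_sum]
  rw [← Equiv.sum_comp (Equiv.mulLeft k) (fun h => ((lam k : ℂˣ) : ℂ) • (((lam h)⁻¹ : ℂˣ) : ℂ) • Ψ h)]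
  apply Finset.sum_congr rfl
  intro h _
  rw [Equiv.coe_mulLeft, mul_smul_comm, ← map_mul, smul_smul]
  congr 1
  rw [map_mul, mul_inv_rev, Units.val_mul, ← mul_assoc, mul_comm ((lam k : ℂˣ) : ℂ), mul_assoc,
    ← Units.val_mul, mul_inv_cancel, Units.val_one, mul_one]

theorem idem_mul (lam : H →* ℂˣ) (k : H) :
    idem Ψ lam * Ψ k = ((lam k : ℂˣ) : ℂ) • idem Ψ lam := by
  unfold idem
  rw [smul_mul_assoc, smul_comm]
  congr 1
  rw [Finset.sum_mul, Finset.smul_sum]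
  rw [← Equiv.sum_comp (Equiv.mulRight k) (fun h => ((lam k : ℂˣ) : ℂ) • (((lam h)⁻¹ : ℂˣ) : ℂ) • Ψ h)]
  apply Finset.sum_congr rfl
  intro h _
  rw [Equiv.coe_mulRight, smul_mul_assoc, ← map_mul, smul_smul]
  congr 1
  rw [map_mul, mul_inv_rev, Units.val_mul, ← mul_assoc,
    ← Units.val_mul, mul_inv_cancel, Units.val_one, one_mul]

open Classical in
theorem idem_mul_idem (lam mu : H →* ℂˣ) :
    idem Ψ lam * idem Ψ mu = if lam = mu then idem Ψ mu else 0 := by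
  have h1 : idem Ψ lam * idem Ψ mu =
      ((Fintype.card H : ℂ)⁻¹ * ∑ h : H, ((mu h : ℂˣ) : ℂ) * conj ((lam h : ℂˣ) : ℂ)) •
        idem Ψ mu := by
    conv_lhs => rw [idem]
    rw [smul_mul_assoc, Finset.sum_mul, mul_smul, Finset.sum_smul]
    congr 1
    apply Finset.sum_congr rfl
    intro h _
    rw [smul_mul_assoc, mul_idem, smul_smul, AbDual.conj_apply, mul_comm]
  rw [h1, AbDual.sum_mul_conj]
  by_cases h : lam = mu
  · rw [if_pos h, if_pos h.symm, inv_mul_cancel₀ card_ne_zero', one_smul]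
  · rw [if_neg h, if_neg (fun h' => h h'.symm), mul_zero, zero_smul]

theorem sum_idem (hc : ∀ a b : H, a * b = b * a) [Fintype (H →* ℂˣ)] :
    ∑ lam : H →* ℂˣ, idem Ψ lam = 1 := by
  classical
  unfold idem
  rw [← Finset.smul_sum, Finset.sum_comm]
  have h1 : ∀ h : H, ∑ lam : H →* ℂˣ, (((lam h)⁻¹ : ℂˣ) : ℂ) • Ψ h =
      if h = 1 then (Fintype.card H : ℂ) • (1 : E →L[ℂ] E) else 0 := by
    intro h
    rw [← Finset.sum_smul]
    have h2 := AbDual.sum_dual_mul_conj hc (1 : H) h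
    have h3 : ∑ lam : H →* ℂˣ, (((lam h)⁻¹ : ℂˣ) : ℂ) =
        ∑ ψ : H →* ℂˣ, ((ψ 1 : ℂˣ) : ℂ) * conj ((ψ h : ℂˣ) : ℂ) := by
      apply Finset.sum_congr rfl
      intro ψ _
      rw [AbDual.conj_apply, map_one, Units.val_one, one_mul]
    rw [h3, h2]
    by_cases hh : h = 1
    · rw [if_pos hh, if_pos hh.symm, hh, map_one]
    · rw [if_neg hh, if_neg (fun h' => hh h'.symm), zero_smul]
  simp only [h1]
  rw [Finset.sum_ite_eq' Finset.univ (1 : H), if_pos (Finset.mem_univ _), smul_smul,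
    inv_mul_cancel₀ card_ne_zero', one_smul]

theorem apply_eq_sum (hc : ∀ a b : H, a * b = b * a) [Fintype (H →* ℂˣ)] (k : H) :
    Ψ k = ∑ lam : H →* ℂˣ, ((lam k : ℂˣ) : ℂ) • idem Ψ lam := by
  rw [← mul_one (Ψ k), ← sum_idem Ψ hc, Finset.mul_sum]
  apply Finset.sum_congr rfl
  intro lam _
  rw [mul_idem]

omit [Fintype H] in
theorem star_apply (hu : ∀ h, star (Ψ h) * Ψ h = 1) (h : H) : star (Ψ h) = Ψ h⁻¹ := by
  have h1 : Ψ h * Ψ h⁻¹ = 1 := by rw [← map_mul, mul_inv_cancel, map_one]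
  calc star (Ψ h) = star (Ψ h) * (Ψ h * Ψ h⁻¹) := by rw [h1, mul_one]
    _ = Ψ h⁻¹ := by rw [← mul_assoc, hu, one_mul]

theorem star_idem (hu : ∀ h, star (Ψ h) * Ψ h = 1) (lam : H →* ℂˣ) :
    star (idem Ψ lam) = idem Ψ lam := by
  unfold idem
  rw [star_smul, star_sum]
  congr 1
  · simp
  · rw [← Equiv.sum_comp (Equiv.inv H) (fun h => (((lam h)⁻¹ : ℂˣ) : ℂ) • Ψ h)]
    apply Finset.sum_congr rfl
    intro h _
    rw [star_smul, star_apply Ψ hu, Equiv.inv_apply, map_inv lam h, inv_inv]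
    congr 1
    have := AbDual.conj_apply lam h⁻¹
    rw [map_inv lam h, inv_inv] at this
    exact this

omit [Fintype H] in
theorem norm_apply_le (hu : ∀ h, star (Ψ h) * Ψ h = 1) (h : H) : ‖Ψ h‖ ≤ 1 := by
  have h1 : ‖Ψ h‖ * ‖Ψ h‖ = ‖(1 : E →L[ℂ] E)‖ := by
    rw [← hu h, CStarRing.norm_star_mul_self]
  have h2 : ‖(1 : E →L[ℂ] E)‖ ≤ 1 := ContinuousLinearMap.norm_id_le
  nlinarith [norm_nonneg (Ψ h)]

theorem norm_idem_le (hu : ∀ h, star (Ψ h) * Ψ h = 1) (lam : H →* ℂˣ) : ‖idem Ψ lam‖ ≤ 1 := by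
  unfold idem
  rw [norm_smul, norm_inv, Complex.norm_natCast]
  have h1 : ‖∑ h : H, (((lam h)⁻¹ : ℂˣ) : ℂ) • Ψ h‖ ≤ (Fintype.card H : ℝ) := by
    calc ‖∑ h : H, (((lam h)⁻¹ : ℂˣ) : ℂ) • Ψ h‖ ≤ ∑ h : H, ‖(((lam h)⁻¹ : ℂˣ) : ℂ) • Ψ h‖ :=
          norm_sum_le _ _
      _ ≤ ∑ _h : H, (1 : ℝ) := by
          apply Finset.sum_le_sum
          intro h _
          rw [norm_smul]
          have h2 : ‖(((lam h)⁻¹ : ℂˣ) : ℂ)‖ = 1 := by
            have h3 : (((lam h)⁻¹ : ℂˣ) : ℂ) ^ orderOf h = 1 := by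
              rw [← Units.val_pow_eq_pow_val, inv_pow, ← map_pow, pow_orderOf_eq_one, map_one,
                inv_one, Units.val_one]
            exact Complex.norm_eq_one_of_pow_eq_one h3 (orderOf_pos h).ne'
          rw [h2, one_mul]
          exact norm_apply_le Ψ hu h
      _ = (Fintype.card H : ℝ) := by simp
  have h0 : (0 : ℝ) < Fintype.card H := by exact_mod_cast Fintype.card_pos
  rw [inv_mul_le_iff₀ h0, mul_one]
  exact h1

theorem pyth {ι : Type*} (s : Finset ι) (w : ι → E)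
    (h : ∀ i ∈ s, ∀ j ∈ s, i ≠ j → ⟪w i, w j⟫_ℂ = 0) :
    ‖∑ i ∈ s, w i‖ ^ 2 = ∑ i ∈ s, ‖w i‖ ^ 2 := by
  classical
  induction s using Finset.induction_on with
  | empty => simp
  | insert a s ha ih =>
    rw [Finset.sum_insert ha, Finset.sum_insert ha]
    have h1 : ⟪w a, ∑ i ∈ s, w i⟫_ℂ = 0 := by
      rw [inner_sum]
      apply Finset.sum_eq_zero
      intro i hi
      exact h a (Finset.mem_insert_self _ _) i (Finset.mem_insert_of_mem hi)
        (fun hai => ha (hai ▸ hi))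
    have h2 := norm_add_sq_eq_norm_sq_add_norm_sq_of_inner_eq_zero (𝕜 := ℂ) _ _ h1
    rw [pow_two, h2, ← pow_two, ← pow_two, ih]
    intro i hi j hj hij
    exact h i (Finset.mem_insert_of_mem hi) j (Finset.mem_insert_of_mem hj) hij

theorem inner_idem (hu : ∀ h, star (Ψ h) * Ψ h = 1) {lam mu : H →* ℂˣ} (hne : lam ≠ mu)
    (u v : E) : ⟪idem Ψ lam u, idem Ψ mu v⟫_ℂ = 0 := by
  have h1 : ⟪idem Ψ lam u, idem Ψ mu v⟫_ℂ = ⟪u, (star (idem Ψ lam)) (idem Ψ mu v)⟫_ℂ := by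
    rw [ContinuousLinearMap.star_eq_adjoint, ContinuousLinearMap.adjoint_inner_right]
  rw [h1, star_idem Ψ hu]
  have h2 : idem Ψ lam (idem Ψ mu v) = (idem Ψ lam * idem Ψ mu) v := rfl
  rw [h2, idem_mul_idem, if_neg hne]
  simp

theorem norm_sum_smul_idem_le (hc : ∀ a b : H, a * b = b * a) [Fintype (H →* ℂˣ)]
    (hu : ∀ h, star (Ψ h) * Ψ h = 1) (a : (H →* ℂˣ) → ℂ) (r : ℝ) (hr : 0 ≤ r)
    (ha : ∀ lam, idem Ψ lam ≠ 0 → ‖a lam‖ ≤ r) :
    ‖∑ lam : H →* ℂˣ, a lam • idem Ψ lam‖ ≤ r := by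
  apply ContinuousLinearMap.opNorm_le_bound _ hr
  intro v
  have h1 : ‖(∑ lam : H →* ℂˣ, a lam • idem Ψ lam) v‖ ^ 2 =
      ∑ lam : H →* ℂˣ, ‖a lam • idem Ψ lam v‖ ^ 2 := by
    rw [_root_.sum_apply]
    simp only [_root_.smul_apply]
    apply pyth
    intro i _ j _ hij
    rw [inner_smul_left, inner_smul_right, inner_idem Ψ hu hij, mul_zero, mul_zero]
  have h2 : ‖v‖ ^ 2 = ∑ lam : H →* ℂˣ, ‖idem Ψ lam v‖ ^ 2 := by
    have h3 : v = ∑ lam : H →* ℂˣ, idem Ψ lam v := by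
      rw [← _root_.sum_apply, sum_idem Ψ hc]
      rfl
    conv_lhs => rw [h3]
    apply pyth
    intro i _ j _ hij
    exact inner_idem Ψ hu hij v v
  have h4 : ‖(∑ lam : H →* ℂˣ, a lam • idem Ψ lam) v‖ ^ 2 ≤ (r * ‖v‖) ^ 2 := by
    rw [h1, mul_pow, h2, Finset.mul_sum]
    apply Finset.sum_le_sum
    intro lam _
    rw [norm_smul, mul_pow]
    by_cases h0 : idem Ψ lam = 0
    · rw [h0]; simp
    · apply mul_le_mul_of_nonneg_right _ (by positivity)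
      exact pow_le_pow_left₀ (norm_nonneg _) (ha lam h0) 2
  exact (pow_le_pow_iff_left₀ (norm_nonneg _) (by positivity) (by norm_num)).mp h4

end Cfsg.Agent.Lib.Helper2.Jor
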