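import Mathlib
import Cfsg.Agent.Lib.Helper2.JorIdem
import Cfsg.Agent.Lib.Helper2.JorArc

/-! Jordan-type theorem for finite unitary groups. -/

set_option autoImplicit false

namespace Cfsg.Agent.Lib.Helper2.Jor

open scoped ComplexConjugate InnerProductSpace
open Cfsg.Agent.Lib.Helper2

variable {E : Type*} [NormedAddCommGroup E] [InnerProductSpace ℂ E] [CompleteSpace E]
variable {G : Type*} [Group G] (Φ : G →* (E →L[ℂ] E))

omit [CompleteSpace E] in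
theorem commute_idem {H K : Type*} [Group H] [Fintype H] [Group K] [Fintype K]
    (Ψ : H →* (E →L[ℂ] E)) (Ψ' : K →* (E →L[ℂ] E)) (hcm : ∀ h k, Commute (Ψ h) (Ψ' k))
    (lam : H →* ℂˣ) (mu : K →* ℂˣ) : Commute (idem Ψ lam) (idem Ψ' mu) := by
  unfold idem
  apply Commute.smul_left
  apply Commute.smul_right
  apply Commute.sum_left
  intro h _
  apply Commute.sum_right
  intro k _
  exact ((hcm h k).smul_left _).smul_right _

theorem comm_est (hu : ∀ g, star (Φ g) * Φ g = 1) (x g : G) (c : ℂ) :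
    ‖Φ (x * g * x⁻¹ * g⁻¹) - 1‖ ≤ 2 * ‖Φ x - c • 1‖ * ‖Φ g - 1‖ := by
  set X := Φ x
  set Y := Φ g
  set C : E →L[ℂ] E := c • 1 with hC
  have hCY : C * Y = Y * C := by
    rw [hC, smul_mul_assoc, mul_smul_comm, one_mul, mul_one]
  have e1 : (X - C) * (Y - 1) - (Y - 1) * (X - C) = X * Y - Y * X - (C * Y - Y * C) := by
    noncomm_ring
  rw [hCY, sub_self, sub_zero] at e1
  have e2 : Φ (x * g * x⁻¹ * g⁻¹) - 1 = (X * Y - Y * X) * Φ (x⁻¹ * g⁻¹) := by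
    rw [sub_mul, ← map_mul, ← map_mul, ← map_mul, ← map_mul]
    have a1 : x * g * (x⁻¹ * g⁻¹) = x * g * x⁻¹ * g⁻¹ := by group
    have a2 : g * x * (x⁻¹ * g⁻¹) = 1 := by group
    rw [a1, a2, map_one]
  rw [e2, ← e1]
  calc ‖((X - C) * (Y - 1) - (Y - 1) * (X - C)) * Φ (x⁻¹ * g⁻¹)‖
      ≤ ‖(X - C) * (Y - 1) - (Y - 1) * (X - C)‖ * ‖Φ (x⁻¹ * g⁻¹)‖ := norm_mul_le _ _
    _ ≤ ‖(X - C) * (Y - 1) - (Y - 1) * (X - C)‖ * 1 :=
        mul_le_mul_of_nonneg_left (norm_apply_le Φ hu _) (norm_nonneg _)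
    _ = ‖(X - C) * (Y - 1) - (Y - 1) * (X - C)‖ := mul_one _
    _ ≤ ‖(X - C) * (Y - 1)‖ + ‖(Y - 1) * (X - C)‖ := norm_sub_le _ _
    _ ≤ ‖X - C‖ * ‖Y - 1‖ + ‖Y - 1‖ * ‖X - C‖ := add_le_add (norm_mul_le _ _) (norm_mul_le _ _)
    _ = 2 * ‖X - C‖ * ‖Y - 1‖ := by ring

theorem eq_conj_of_commute [Finite G] (hu : ∀ g, star (Φ g) * Φ g = 1)
    (hinj : Function.Injective Φ) (x y : G) (hcm : Commute x (y * x * y⁻¹))
    (hy : ‖Φ y - 1‖ < 1) : y * x * y⁻¹ = x := by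
  classical
  set H : Subgroup G := Subgroup.zpowers x with hH
  let _ : Fintype H := Fintype.ofFinite H
  have hc : ∀ a b : H, a * b = b * a := by
    rintro ⟨a, i, rfl⟩ ⟨b, j, rfl⟩
    apply Subtype.ext
    show x ^ i * x ^ j = x ^ j * x ^ i
    rw [← zpow_add, ← zpow_add, add_comm]
  have _ := AbDual.finite_dual hc
  let _ : Fintype (H →* ℂˣ) := Fintype.ofFinite _
  set Ψ : H →* (E →L[ℂ] E) := Φ.comp H.subtype with hΨ
  set Ψ' : H →* (E →L[ℂ] E) := Φ.comp ((MulAut.conj y).toMonoidHom.comp H.subtype) with hΨ'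
  have hΨa : ∀ h : H, Ψ h = Φ (h : G) := fun h => rfl
  have hΨ'a : ∀ h : H, Ψ' h = Φ (y * (h : G) * y⁻¹) := fun h => rfl
  have hu1 : ∀ h, star (Ψ h) * Ψ h = 1 := fun h => hu _
  have hu2 : ∀ h, star (Ψ' h) * Ψ' h = 1 := fun h => hu _
  have hcm' : ∀ h k, Commute (Ψ h) (Ψ' k) := by
    rintro ⟨a, i, rfl⟩ ⟨b, j, rfl⟩
    rw [hΨa, hΨ'a]
    show Commute (Φ (x ^ i)) (Φ (y * x ^ j * y⁻¹))
    rw [← conj_zpow]
    exact (hcm.zpow_zpow i j).map Φ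
  have hrel : ∀ mu, idem Ψ' mu = Φ y * idem Ψ mu * Φ y⁻¹ := by
    intro mu
    unfold idem
    rw [mul_smul_comm, smul_mul_assoc, Finset.mul_sum, Finset.sum_mul]
    congr 1
    apply Finset.sum_congr rfl
    intro h _
    rw [mul_smul_comm, smul_mul_assoc, hΨ'a, hΨa, map_mul, map_mul]
  have hyinv : ‖1 - Φ y⁻¹‖ < 1 := by
    have h1 : 1 - Φ y⁻¹ = Φ y⁻¹ * (Φ y - 1) := by
      rw [mul_sub, ← map_mul, inv_mul_cancel, map_one, mul_one]
    rw [h1]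
    calc ‖Φ y⁻¹ * (Φ y - 1)‖ ≤ ‖Φ y⁻¹‖ * ‖Φ y - 1‖ := norm_mul_le _ _
      _ ≤ 1 * ‖Φ y - 1‖ := mul_le_mul_of_nonneg_right (norm_apply_le Φ hu _) (norm_nonneg _)
      _ < 1 := by rw [one_mul]; exact hy
  have key : ∀ lam mu : H →* ℂˣ, lam ≠ mu → idem Ψ lam * idem Ψ' mu = 0 := by
    intro lam mu hne
    by_contra hF
    set F := idem Ψ lam * idem Ψ' mu with hFdef
    have h1 : idem Ψ lam * Φ y⁻¹ * F = 0 := by
      have h2 : F = Φ y * idem Ψ mu * Φ y⁻¹ * idem Ψ lam := by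
        rw [hFdef, (commute_idem Ψ Ψ' hcm' lam mu).eq, hrel]
      rw [h2]
      have h3 : idem Ψ lam * Φ y⁻¹ * (Φ y * idem Ψ mu * Φ y⁻¹ * idem Ψ lam) =
          idem Ψ lam * (Φ y⁻¹ * Φ y) * idem Ψ mu * Φ y⁻¹ * idem Ψ lam := by
        simp only [mul_assoc]
      rw [h3, ← map_mul, inv_mul_cancel, map_one, mul_one, idem_mul_idem, if_neg hne, zero_mul,
        zero_mul]
    have h2 : idem Ψ lam * F = F := by
      rw [hFdef, ← mul_assoc, idem_mul_idem, if_pos rfl]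
    have h3 : F = idem Ψ lam * (1 - Φ y⁻¹) * F := by
      rw [mul_sub, mul_one, sub_mul, h1, h2, sub_zero]
    have h4 : ‖F‖ ≤ ‖1 - Φ y⁻¹‖ * ‖F‖ := by
      calc ‖F‖ = ‖idem Ψ lam * (1 - Φ y⁻¹) * F‖ := by rw [← h3]
        _ ≤ ‖idem Ψ lam * (1 - Φ y⁻¹)‖ * ‖F‖ := norm_mul_le _ _
        _ ≤ (‖idem Ψ lam‖ * ‖1 - Φ y⁻¹‖) * ‖F‖ :=
            mul_le_mul_of_nonneg_right (norm_mul_le _ _) (norm_nonneg _)
        _ ≤ (1 * ‖1 - Φ y⁻¹‖) * ‖F‖ := by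
            apply mul_le_mul_of_nonneg_right _ (norm_nonneg _)
            exact mul_le_mul_of_nonneg_right (norm_idem_le Ψ hu1 lam) (norm_nonneg _)
        _ = ‖1 - Φ y⁻¹‖ * ‖F‖ := by rw [one_mul]
    have h5 : 0 < ‖F‖ := norm_pos_iff.mpr hF
    nlinarith
  set xh : H := ⟨x, Subgroup.mem_zpowers x⟩ with hxh
  have e1 : Ψ xh = ∑ mu : H →* ℂˣ, ((mu xh : ℂˣ) : ℂ) • (idem Ψ mu * idem Ψ' mu) := by
    calc Ψ xh = Ψ xh * ∑ mu : H →* ℂˣ, idem Ψ' mu := by rw [sum_idem Ψ' hc, mul_one]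
      _ = ∑ mu : H →* ℂˣ, Ψ xh * idem Ψ' mu := Finset.mul_sum _ _ _
      _ = ∑ mu : H →* ℂˣ, ((mu xh : ℂˣ) : ℂ) • (idem Ψ mu * idem Ψ' mu) := by
        apply Finset.sum_congr rfl
        intro mu _
        rw [apply_eq_sum Ψ hc xh, Finset.sum_mul, Finset.sum_eq_single mu]
        · rw [smul_mul_assoc]
        · intro lam _ hne
          rw [smul_mul_assoc, key lam mu hne, smul_zero]
        · intro h; exact absurd (Finset.mem_univ _) h
  have e2 : Ψ' xh = ∑ mu : H →* ℂˣ, ((mu xh : ℂˣ) : ℂ) • (idem Ψ mu * idem Ψ' mu) := by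
    calc Ψ' xh = (∑ lam : H →* ℂˣ, idem Ψ lam) * Ψ' xh := by rw [sum_idem Ψ hc, one_mul]
      _ = ∑ lam : H →* ℂˣ, idem Ψ lam * Ψ' xh := Finset.sum_mul _ _ _
      _ = ∑ mu : H →* ℂˣ, ((mu xh : ℂˣ) : ℂ) • (idem Ψ mu * idem Ψ' mu) := by
        apply Finset.sum_congr rfl
        intro lam _
        rw [apply_eq_sum Ψ' hc xh, Finset.mul_sum, Finset.sum_eq_single lam]
        · rw [mul_smul_comm]
        · intro mu _ hne
          rw [mul_smul_comm, key lam mu hne.symm, smul_zero]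
        · intro h; exact absurd (Finset.mem_univ _) h
  apply hinj
  have e3 : Φ (y * x * y⁻¹) = Ψ' xh := rfl
  have e4 : Φ x = Ψ xh := rfl
  rw [e3, e4, e1, e2]

theorem commute_of_small [Finite G] (hu : ∀ g, star (Φ g) * Φ g = 1)
    (hinj : Function.Injective Φ) (x : G) (hx : ‖Φ x - (cst : ℂ) • 1‖ < 1 / 2) :
    ∀ g, ‖Φ g - 1‖ < 1 → Commute x g := by
  let r : G → G → Prop := fun a b => ‖Φ a - 1‖ < ‖Φ b - 1‖
  have _ : IsTrans G r := ⟨fun a b c h1 h2 => lt_trans h1 h2⟩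
  have _ : Std.Irrefl r := ⟨fun a => lt_irrefl _⟩
  have wf : WellFounded r := Finite.wellFounded_of_trans_of_irrefl r
  intro g
  induction g using wf.induction with
  | h g ih =>
    intro hg
    by_cases h0 : ‖Φ g - 1‖ = 0
    · have h1 : Φ g = Φ 1 := by
        rw [map_one]
        exact sub_eq_zero.mp (norm_eq_zero.mp h0)
      rw [hinj h1]
      exact Commute.one_right x
    · have hpos : 0 < ‖Φ g - 1‖ := lt_of_le_of_ne (norm_nonneg _) (Ne.symm h0)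
      have hest := comm_est Φ hu x g (cst : ℂ)
      have hlt : ‖Φ (x * g * x⁻¹ * g⁻¹) - 1‖ < ‖Φ g - 1‖ := by nlinarith [norm_nonneg (Φ x - (cst : ℂ) • 1)]
      have h1 : Commute x (x * g * x⁻¹ * g⁻¹) := ih (x * g * x⁻¹ * g⁻¹) hlt (lt_trans hlt hg)
      have h2 : Commute x (g * x * g⁻¹) := by
        have h3 : (g * x * g⁻¹)⁻¹ = x⁻¹ * (x * g * x⁻¹ * g⁻¹) := by
          group
        have h4 : Commute x (g * x * g⁻¹)⁻¹ := by
          rw [h3]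
          exact ((Commute.refl x).inv_right).mul_right h1
        exact (Commute.inv_right_iff).mp h4
      have h5 := eq_conj_of_commute Φ hu hinj x g h2 hg
      show x * g = g * x
      calc x * g = (g * x * g⁻¹) * g := by rw [h5]
        _ = g * x := by group

end Cfsg.Agent.Lib.Helper2.Jor
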