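import Mathlib
import Cfsg.Agent.Lib.Helper2.JorMain

/-! Counting step and the abstract Jordan-type theorem. -/

set_option autoImplicit false

namespace Cfsg.Agent.Lib.Helper2.Jor

open scoped ComplexConjugate InnerProductSpace
open Cfsg.Agent.Lib.Helper2

variable {E : Type*} [NormedAddCommGroup E] [InnerProductSpace ℂ E] [CompleteSpace E]

theorem small_of_eig {H : Type*} [Group H] [Fintype H] (Ψ : H →* (E →L[ℂ] E))
    (hc : ∀ a b : H, a * b = b * a) [Fintype (H →* ℂˣ)]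
    (hu : ∀ h, star (Ψ h) * Ψ h = 1) (k : H)
    (hk : ∀ lam : H →* ℂˣ, idem Ψ lam ≠ 0 → ‖((lam k : ℂˣ) : ℂ) - (cst : ℂ)‖ < 1 / 2) :
    ‖Ψ k - (cst : ℂ) • 1‖ < 1 / 2 := by
  classical
  have h1 : Ψ k - (cst : ℂ) • 1 =
      ∑ lam : H →* ℂˣ, (((lam k : ℂˣ) : ℂ) - (cst : ℂ)) • idem Ψ lam := by
    simp only [sub_smul]
    rw [Finset.sum_sub_distrib, ← apply_eq_sum Ψ hc k, ← Finset.smul_sum, sum_idem Ψ hc]
  obtain ⟨r, hr0, hr1, hr2⟩ : ∃ r : ℝ, 0 ≤ r ∧ r < 1 / 2 ∧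
      ∀ lam : H →* ℂˣ, idem Ψ lam ≠ 0 → ‖((lam k : ℂˣ) : ℂ) - (cst : ℂ)‖ ≤ r := by
    set T : Finset (H →* ℂˣ) := Finset.univ.filter (fun lam => idem Ψ lam ≠ 0) with hT
    rcases T.eq_empty_or_nonempty with hemp | hne
    · refine ⟨0, le_refl _, by norm_num, fun lam hl => ?_⟩
      exfalso
      have : lam ∈ T := by rw [hT]; exact Finset.mem_filter.mpr ⟨Finset.mem_univ _, hl⟩
      rw [hemp] at this
      exact absurd this (Finset.notMem_empty _)
    · obtain ⟨l0, hl0, hmax⟩ :=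
        T.exists_max_image (fun lam => ‖((lam k : ℂˣ) : ℂ) - (cst : ℂ)‖) hne
      refine ⟨‖((l0 k : ℂˣ) : ℂ) - (cst : ℂ)‖, norm_nonneg _,
        hk l0 (Finset.mem_filter.mp hl0).2, fun lam hl => ?_⟩
      exact hmax lam (Finset.mem_filter.mpr ⟨Finset.mem_univ _, hl⟩)
  rw [h1]
  exact lt_of_le_of_lt (norm_sum_smul_idem_le Ψ hc hu _ r hr0 hr2) hr1

theorem card_support_le [FiniteDimensional ℂ E] {H : Type*} [Group H] [Fintype H]
    (Ψ : H →* (E →L[ℂ] E)) [Fintype (H →* ℂˣ)]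
    (hu : ∀ h, star (Ψ h) * Ψ h = 1) [Fintype {lam : H →* ℂˣ // idem Ψ lam ≠ 0}] :
    Fintype.card {lam : H →* ℂˣ // idem Ψ lam ≠ 0} ≤ Module.finrank ℂ E := by
  classical
  have h1 : ∀ lam : {lam : H →* ℂˣ // idem Ψ lam ≠ 0}, ∃ u : E, idem Ψ lam.1 u ≠ 0 := by
    intro lam
    by_contra hcon
    push Not at hcon
    exact lam.2 (ContinuousLinearMap.ext hcon)
  choose u hu' using h1
  have hli : LinearIndependent ℂ
      (fun lam : {lam : H →* ℂˣ // idem Ψ lam ≠ 0} => idem Ψ lam.1 (u lam)) := by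
    apply linearIndependent_of_ne_zero_of_inner_eq_zero hu'
    intro a b hab
    exact inner_idem Ψ hu (fun h => hab (Subtype.ext h)) _ _
  exact hli.fintype_card_le_finrank

theorem norm_unit_apply {H : Type*} [Group H] [Finite H] (lam : H →* ℂˣ) (h : H) :
    ‖((lam h : ℂˣ) : ℂ)‖ = 1 := by
  have h3 : ((lam h : ℂˣ) : ℂ) ^ orderOf h = 1 := by
    rw [← Units.val_pow_eq_pow_val, ← map_pow, pow_orderOf_eq_one, map_one, Units.val_one]
  exact Complex.norm_eq_one_of_pow_eq_one h3 (orderOf_pos h).ne'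

theorem index_le {G : Type*} [Group G] [Finite G] [FiniteDimensional ℂ E]
    (Φ : G →* (E →L[ℂ] E)) (hu : ∀ g, star (Φ g) * Φ g = 1) (A : Subgroup G)
    (hA : ∀ g, ‖Φ g - (cst : ℂ) • 1‖ < 1 / 2 → g ∈ A) (H : Subgroup G)
    (hH : ∀ x ∈ H, ∀ y ∈ H, x * y = y * x) :
    (A.subgroupOf H).index ≤ 12 ^ Module.finrank ℂ E := by
  classical
  let _ : Fintype H := Fintype.ofFinite H
  have hc : ∀ a b : H, a * b = b * a := fun a b => Subtype.ext (hH a a.2 b b.2)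
  have _ := AbDual.finite_dual hc
  let _ : Fintype (H →* ℂˣ) := Fintype.ofFinite _
  set Ψ : H →* (E →L[ℂ] E) := Φ.comp H.subtype with hΨ
  have hu1 : ∀ h, star (Ψ h) * Ψ h = 1 := fun h => hu _
  let f : H → ({lam : H →* ℂˣ // idem Ψ lam ≠ 0} → Fin 12) :=
    fun h lam => arc ((lam.1 h : ℂˣ) : ℂ)
  have hf : ∀ h k : H, f h = f k → h⁻¹ * k ∈ A.subgroupOf H := by
    intro h k hhk
    rw [Subgroup.mem_subgroupOf]
    apply hA
    have h1 : Φ ((h⁻¹ * k : H) : G) = Ψ (h⁻¹ * k) := rfl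
    rw [h1]
    apply small_of_eig Ψ hc hu1
    intro lam hl
    have h2 := congrFun hhk ⟨lam, hl⟩
    have h3 := arc_close (norm_unit_apply lam h) (norm_unit_apply lam k) h2
    rw [map_mul, map_inv, Units.val_mul, Units.val_inv_eq_inv_val]
    exact h3
  have hinj : Function.Injective
      (fun q : H ⧸ A.subgroupOf H => f (Quotient.out q)) := by
    intro q q' hq
    have h1 := hf _ _ hq
    rw [← QuotientGroup.eq, QuotientGroup.out_eq', QuotientGroup.out_eq'] at h1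
    exact h1
  have h1 : (A.subgroupOf H).index ≤
      Nat.card ({lam : H →* ℂˣ // idem Ψ lam ≠ 0} → Fin 12) :=
    Nat.card_le_card_of_injective _ hinj
  rw [Nat.card_eq_fintype_card, Fintype.card_fun, Fintype.card_fin] at h1
  exact le_trans h1 (Nat.pow_le_pow_right (by norm_num) (card_support_le Ψ hu1))

theorem jordan_abstract {G : Type*} [Group G] [Finite G] [FiniteDimensional ℂ E]
    (Φ : G →* (E →L[ℂ] E)) (hu : ∀ g, star (Φ g) * Φ g = 1) (hinj : Function.Injective Φ) :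
    ∃ A : Subgroup G, A.Normal ∧ (∀ x ∈ A, ∀ y ∈ A, x * y = y * x) ∧
      ∀ H : Subgroup G, (∀ x ∈ H, ∀ y ∈ H, x * y = y * x) →
        (A.subgroupOf H).index ≤ 12 ^ Module.finrank ℂ E := by
  set S : Set G := {g | ‖Φ g - (cst : ℂ) • 1‖ < 1 / 2} with hS
  have hsmall : ∀ g ∈ S, ‖Φ g - 1‖ < 1 := by
    intro g hg
    have h1 : Φ g - 1 = (Φ g - (cst : ℂ) • 1) + ((cst : ℂ) - 1) • (1 : E →L[ℂ] E) := by
      rw [sub_smul, one_smul]; abel
    have h2 : ‖((cst : ℂ) - 1) • (1 : E →L[ℂ] E)‖ ≤ 1 - cst := by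
      rw [norm_smul]
      have h3 : ‖(cst : ℂ) - 1‖ = 1 - cst := by
        rw [← Complex.ofReal_one, ← Complex.ofReal_sub, Complex.norm_real, Real.norm_eq_abs,
          abs_sub_comm, abs_of_nonneg (by linarith [cst_le])]
      rw [h3]
      have h4 : ‖(1 : E →L[ℂ] E)‖ ≤ 1 := ContinuousLinearMap.norm_id_le
      nlinarith [cst_le, norm_nonneg (1 : E →L[ℂ] E)]
    have hg' : ‖Φ g - (cst : ℂ) • 1‖ < 1 / 2 := hg
    rw [h1]
    have := norm_add_le (Φ g - (cst : ℂ) • 1) (((cst : ℂ) - 1) • (1 : E →L[ℂ] E))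
    linarith [cst_gt]
  have hcomm : ∀ x ∈ S, ∀ y ∈ S, x * y = y * x := fun x hx y hy =>
    (commute_of_small Φ hu hinj x hx y (hsmall y hy)).eq
  have hconj : ∀ g x, x ∈ S → g * x * g⁻¹ ∈ S := by
    intro g x hx
    have hx' : ‖Φ x - (cst : ℂ) • 1‖ < 1 / 2 := hx
    show ‖Φ (g * x * g⁻¹) - (cst : ℂ) • 1‖ < 1 / 2
    have h1 : Φ (g * x * g⁻¹) - (cst : ℂ) • 1 = Φ g * (Φ x - (cst : ℂ) • 1) * Φ g⁻¹ := by
      have h2 : Φ g * Φ g⁻¹ = 1 := by rw [← map_mul, mul_inv_cancel, map_one]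
      rw [mul_sub, sub_mul, map_mul, map_mul, mul_smul_comm, smul_mul_assoc, mul_one, h2]
    rw [h1]
    calc ‖Φ g * (Φ x - (cst : ℂ) • 1) * Φ g⁻¹‖
        ≤ ‖Φ g * (Φ x - (cst : ℂ) • 1)‖ * ‖Φ g⁻¹‖ := norm_mul_le _ _
      _ ≤ (‖Φ g‖ * ‖Φ x - (cst : ℂ) • 1‖) * ‖Φ g⁻¹‖ :=
          mul_le_mul_of_nonneg_right (norm_mul_le _ _) (norm_nonneg _)
      _ ≤ (1 * ‖Φ x - (cst : ℂ) • 1‖) * 1 := by
          apply mul_le_mul _ (norm_apply_le Φ hu _) (norm_nonneg _) (by positivity)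
          exact mul_le_mul_of_nonneg_right (norm_apply_le Φ hu _) (norm_nonneg _)
      _ < 1 / 2 := by rw [one_mul, mul_one]; exact hx'
  refine ⟨Subgroup.closure S, ⟨?_⟩, ?_, ?_⟩
  · intro a ha g
    induction ha using Subgroup.closure_induction with
    | mem x hx => exact Subgroup.subset_closure (hconj g x hx)
    | one => simp
    | mul x y _ _ hx hy =>
      have : g * (x * y) * g⁻¹ = (g * x * g⁻¹) * (g * y * g⁻¹) := by group
      rw [this]
      exact mul_mem hx hy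
    | inv x _ hx =>
      have : g * x⁻¹ * g⁻¹ = (g * x * g⁻¹)⁻¹ := by group
      rw [this]
      exact inv_mem hx
  · intro x hx y hy
    have := (Subgroup.closureCommGroupOfComm hcomm).mul_comm ⟨x, hx⟩ ⟨y, hy⟩
    exact congrArg Subtype.val this
  · intro H hH
    exact index_le Φ hu _ (fun g hg => Subgroup.subset_closure hg) H hH

end Cfsg.Agent.Lib.Helper2.Jor
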