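import Mathlib
import Cfsg.Prelude.Def_Characters
import Cfsg.Agent.Lib.Helper2.Induction
import Cfsg.Agent.Lib.Helper2.Complete
import Cfsg.Agent.S0176

/-! A nilpotent linear group of degree `n` has an abelian subgroup of index dividing `n!`. -/

set_option autoImplicit false

namespace Cfsg.Agent.Lib.Helper2.Jor

open Module Cfsg.Agent.Lib.Helper2

theorem exists_abelian_index_dvd {P : Type*} [Group P] [Finite P] [Group.IsNilpotent P]
    {χ : P → ℂ} (hχ : Cfsg.IsCharacter P χ) (hfaith : ∀ g : P, χ g = χ 1 → g = 1) (n : ℕ)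
    (hn : χ 1 = n) :
    ∃ R0 : Subgroup P, (∀ x ∈ R0, ∀ y ∈ R0, x * y = y * x) ∧ R0.index ∣ n.factorial := by
  classical
  letI := Fintype.ofFinite P
  haveI := finite_irr (G := P)
  letI := Fintype.ofFinite (Cfsg.IrrCharacter P)
  obtain ⟨m, hm⟩ := IsCharacter.exists_eq_sum hχ
  have hval : ∀ g, χ g = ∑ φ : Cfsg.IrrCharacter P, (m φ : ℂ) * (φ : P → ℂ) g := by
    intro g
    rw [hm]
    simp [Finset.sum_apply]
  choose H lam hHl using fun φ : Cfsg.IrrCharacter P => Cfsg.Agent.S0176.result φ.1 φ.2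
  have hdeg : ∀ φ : Cfsg.IrrCharacter P, (φ : P → ℂ) 1 = ((H φ).index : ℂ) := by
    intro φ
    rw [hHl φ]
    unfold Cfsg.indFun
    have h1 : ∀ x : P, Cfsg.extendByZero (H φ) (fun h => ((lam φ h : ℂˣ) : ℂ)) (x⁻¹ * 1 * x) = 1 := by
      intro x
      have : x⁻¹ * 1 * x = ((1 : H φ) : P) := by simp
      rw [this, extendByZero_coe, map_one, Units.val_one]
    rw [Finset.sum_congr rfl (fun x _ => h1 x)]
    simp only [Finset.sum_const, Finset.card_univ, nsmul_eq_mul, mul_one]
    rw [← Nat.card_eq_fintype_card, ← Subgroup.card_mul_index (H φ), Nat.cast_mul, ← mul_assoc,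
      inv_mul_cancel₀ (card_subgroup_ne_zero (H φ)), one_mul]
  have hnsum : n = ∑ φ : Cfsg.IrrCharacter P, m φ * (H φ).index := by
    have h1 := hval 1
    rw [hn] at h1
    simp only [hdeg] at h1
    exact_mod_cast h1
  let Ω := Σ φ : {φ : Cfsg.IrrCharacter P // m φ ≠ 0}, P ⧸ H φ.1
  let f : P →* Equiv.Perm Ω := MulAction.toPermHom P Ω
  have hmem : ∀ a ∈ f.ker, ∀ φ : Cfsg.IrrCharacter P, m φ ≠ 0 → ∀ x : P, x⁻¹ * a * x ∈ H φ := by
    intro a ha φ hφ x
    have h1 : f a = 1 := ha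
    have h2 : f a (⟨⟨φ, hφ⟩, (x : P ⧸ H φ)⟩ : Ω) = ⟨⟨φ, hφ⟩, (x : P ⧸ H φ)⟩ := by rw [h1]; rfl
    have h3 : f a (⟨⟨φ, hφ⟩, (x : P ⧸ H φ)⟩ : Ω) = ⟨⟨φ, hφ⟩, ((a * x : P) : P ⧸ H φ)⟩ := rfl
    rw [h3] at h2
    have h4 : ((a * x : P) : P ⧸ H φ) = (x : P ⧸ H φ) := by
      have := Sigma.mk.inj h2
      exact eq_of_heq this.2
    have h5 := QuotientGroup.eq.mp h4.symm
    rwa [← mul_assoc] at h5
  refine ⟨f.ker, ?_, ?_⟩
  · intro a ha b hb
    have hgoal : (a * b) * (b * a)⁻¹ = 1 := by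
      apply hfaith
      rw [hval, hval]
      apply Finset.sum_congr rfl
      intro φ _
      by_cases h0 : m φ = 0
      · rw [h0]; simp
      · congr 1
        rw [hHl φ]
        unfold Cfsg.indFun
        congr 1
        apply Finset.sum_congr rfl
        intro x _
        have ha' := hmem a ha φ h0 x
        have hb' := hmem b hb φ h0 x
        have e1 : x⁻¹ * ((a * b) * (b * a)⁻¹) * x =
            (((⟨_, ha'⟩ * ⟨_, hb'⟩) * (⟨_, hb'⟩ * ⟨_, ha'⟩)⁻¹ : H φ) : P) := by
          simp only [Subgroup.coe_mul, Subgroup.coe_inv]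
          group
        have e2 : x⁻¹ * 1 * x = ((1 : H φ) : P) := by simp
        rw [e1, e2, extendByZero_coe, extendByZero_coe]
        congr 1
        rw [map_mul, map_inv, map_mul, map_mul, map_one, mul_comm (lam φ ⟨_, ha'⟩),
          mul_inv_cancel]
    exact mul_inv_eq_one.mp hgoal
  · have h1 : f.ker.index ∣ Nat.card (Equiv.Perm Ω) := by
      rw [Subgroup.index_ker]
      exact Subgroup.card_subgroup_dvd_card _
    have h2 : Nat.card (Equiv.Perm Ω) = (Fintype.card Ω).factorial := by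
      rw [Nat.card_eq_fintype_card, Fintype.card_perm]
    have h3 : Fintype.card Ω ≤ n := by
      rw [Fintype.card_sigma, hnsum]
      have h4 : ∀ φ : {φ : Cfsg.IrrCharacter P // m φ ≠ 0},
          Fintype.card (P ⧸ H φ.1) = (H φ.1).index := by
        intro φ
        rw [← Nat.card_eq_fintype_card]
        rfl
      simp only [h4]
      rw [← Finset.sum_subtype (Finset.univ.filter (fun φ => m φ ≠ 0))
        (fun φ => by simp) (fun φ => (H φ).index)]
      calc ∑ φ ∈ Finset.univ.filter (fun φ => m φ ≠ 0), (H φ).index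
          ≤ ∑ φ ∈ Finset.univ.filter (fun φ => m φ ≠ 0), m φ * (H φ).index := by
            apply Finset.sum_le_sum
            intro φ hφ
            exact Nat.le_mul_of_pos_left _ (Nat.pos_of_ne_zero (Finset.mem_filter.mp hφ).2)
        _ ≤ ∑ φ : Cfsg.IrrCharacter P, m φ * (H φ).index :=
            Finset.sum_le_sum_of_subset (Finset.filter_subset _ _)
    rw [h2] at h1
    exact h1.trans (Nat.factorial_dvd_factorial h3)

end Cfsg.Agent.Lib.Helper2.Jor
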