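import Mathlib
import Cfsg.Prelude.Def_Characters
import Cfsg.Agent.Lib.Helper2.JorP

/-! Assembling Jordan's bound from the uniform bound and Blichfeldt's theorem. -/

set_option autoImplicit false

namespace Cfsg.Agent.Lib.Helper2.Jor

open Module Cfsg.Agent.Lib.Helper2

theorem index_dvd_mul {G : Type*} [Group G] (A S : Subgroup G) :
    A.index ∣ S.index * A.relIndex S := by
  have e1 := Subgroup.relIndex_mul_index (inf_le_left : A ⊓ S ≤ A)
  have e2 := Subgroup.relIndex_mul_index (inf_le_right : A ⊓ S ≤ S)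
  rw [Subgroup.inf_relIndex_right] at e2
  rw [mul_comm, e2, ← e1]
  exact dvd_mul_left _ _

theorem factorization_index_le {G : Type*} [Group G] [Finite G] (A S : Subgroup G) {r : ℕ}
    (hS : ¬ r ∣ S.index) :
    A.index.factorization r ≤ (A.relIndex S).factorization r := by
  have hA0 : A.index ≠ 0 := Subgroup.index_ne_zero_of_finite
  have hS0 : S.index ≠ 0 := Subgroup.index_ne_zero_of_finite
  have hR0 : A.relIndex S ≠ 0 := Subgroup.index_ne_zero_of_finite
  have h1 := (Nat.factorization_le_iff_dvd hA0 (mul_ne_zero hS0 hR0)).mpr (index_dvd_mul A S) r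
  rw [Nat.factorization_mul hS0 hR0, Finsupp.add_apply,
    Nat.factorization_eq_zero_of_not_dvd hS, zero_add] at h1
  exact h1

theorem prod_pow_dvd (s : Finset ℕ) (hs : ∀ r ∈ s, r.Prime) (k : ℕ → ℕ)
    (hk : ∀ r ∈ s, ∃ j, k r = r ^ j) (z : ℕ) (hz : ∀ r ∈ s, k r ∣ z) : ∏ r ∈ s, k r ∣ z := by
  classical
  induction s using Finset.induction_on with
  | empty => simp
  | insert a s ha ih =>
    rw [Finset.prod_insert ha]
    apply Nat.Coprime.mul_dvd_of_dvd_of_dvd
    · apply Nat.Coprime.prod_right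
      intro i hi
      obtain ⟨j1, h1⟩ := hk a (Finset.mem_insert_self _ _)
      obtain ⟨j2, h2⟩ := hk i (Finset.mem_insert_of_mem hi)
      rw [h1, h2]
      exact Nat.coprime_pow_primes _ _ (hs a (Finset.mem_insert_self _ _))
        (hs i (Finset.mem_insert_of_mem hi)) (fun h => ha (h ▸ hi))
    · exact hz a (Finset.mem_insert_self _ _)
    · exact ih (fun r hr => hs r (Finset.mem_insert_of_mem hr))
        (fun r hr => hk r (Finset.mem_insert_of_mem hr))
        (fun r hr => hz r (Finset.mem_insert_of_mem hr))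

theorem sylow_part {G : Type*} [Group G] [Finite G] {χ : G → ℂ} (hχ : Cfsg.IsCharacter G χ)
    (hfaith : ∀ g : G, χ g = χ 1 → g = 1) (n : ℕ) (hn : χ 1 = n) (A : Subgroup G)
    (hA : ∀ H : Subgroup G, (∀ x ∈ H, ∀ y ∈ H, x * y = y * x) →
      (A.subgroupOf H).index ≤ 12 ^ n) (r : ℕ) :
    ∃ t k : ℕ, r.Prime → (t ≠ 0 ∧ A.index.factorization r ≤ t.factorization r ∧
      k ∣ n.factorial ∧ (∃ j, k = r ^ j) ∧ t ≤ k * 12 ^ n) := by
  by_cases hr : r.Prime
  · haveI : Fact r.Prime := ⟨hr⟩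
    let R : Sylow r G := default
    haveI : Group.IsNilpotent (R : Subgroup G) := R.2.isNilpotent
    obtain ⟨R0', hab, hidx⟩ := exists_abelian_index_dvd (P := (R : Subgroup G))
      (IsCharacter.restrict (R : Subgroup G) hχ) (fun g hg => Subtype.ext (hfaith g hg)) n hn
    refine ⟨A.relIndex R, R0'.index, fun _ => ⟨Subgroup.index_ne_zero_of_finite,
      factorization_index_le A R R.not_dvd_index, hidx, ?_, ?_⟩⟩
    · obtain ⟨e, he⟩ := IsPGroup.iff_card.mp R.2
      have h1 : R0'.index ∣ r ^ e := he ▸ R0'.index_dvd_card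
      obtain ⟨j, _, hj⟩ := (Nat.dvd_prime_pow hr).mp h1
      exact ⟨j, hj⟩
    · set R0 : Subgroup G := R0'.map (R : Subgroup G).subtype with hR0
      have hR0le : R0 ≤ (R : Subgroup G) := Subgroup.map_subtype_le R0'
      have hR0ab : ∀ x ∈ R0, ∀ y ∈ R0, x * y = y * x := by
        rintro _ ⟨x, hx, rfl⟩ _ ⟨y, hy, rfl⟩
        exact congrArg Subtype.val (hab x hx y hy)
      have h1 : (A.subgroupOf R0).index ≤ 12 ^ n := hA R0 hR0ab
      have h2 : R0.subgroupOf (R : Subgroup G) = R0' :=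
        Subgroup.comap_map_eq_self_of_injective (Subgroup.subtype_injective _) R0'
      have h3 : (A.subgroupOf (R : Subgroup G)).relIndex R0' = A.relIndex R0 := by
        rw [← h2]
        exact Subgroup.relIndex_subgroupOf hR0le
      have h4 := index_dvd_mul (A.subgroupOf (R : Subgroup G)) R0'
      rw [h3] at h4
      have h5 : A.relIndex R0 ≠ 0 := Subgroup.index_ne_zero_of_finite
      have h6 : R0'.index ≠ 0 := Subgroup.index_ne_zero_of_finite
      calc A.relIndex R ≤ R0'.index * A.relIndex R0 :=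
            Nat.le_of_dvd (Nat.pos_of_ne_zero (mul_ne_zero h6 h5)) h4
        _ ≤ R0'.index * 12 ^ n := Nat.mul_le_mul_left _ h1
  · exact ⟨0, 0, fun h => absurd h hr⟩

theorem jordan_bound {G : Type*} [Group G] [Finite G] {χ : G → ℂ} (hχ : Cfsg.IsCharacter G χ)
    (hfaith : ∀ g : G, χ g = χ 1 → g = 1) (n : ℕ) (hn : χ 1 = n) (A : Subgroup G)
    (hA : ∀ H : Subgroup G, (∀ x ∈ H, ∀ y ∈ H, x * y = y * x) →
      (A.subgroupOf H).index ≤ 12 ^ n)
    (B : Subgroup G) (hBab : ∀ x ∈ B, ∀ y ∈ B, x * y = y * x)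
    (hBidx : ∀ q : ℕ, q.Prime → q ∣ B.index → q ≤ n + 1) :
    A.index ≤ n.factorial * 12 ^ (n * (Nat.primeCounting (n + 1) + 1)) := by
  classical
  choose t k htk using sylow_part hχ hfaith n hn A hA
  set PP : Finset ℕ := (Finset.range (n + 2)).filter Nat.Prime with hPP
  have hprime : ∀ r ∈ PP, r.Prime := fun r hr => (Finset.mem_filter.mp hr).2
  set tB := A.relIndex B with htB
  have htB0 : tB ≠ 0 := Subgroup.index_ne_zero_of_finite
  have hA0 : A.index ≠ 0 := Subgroup.index_ne_zero_of_finite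
  have hprod0 : ∏ r ∈ PP, t r ≠ 0 :=
    Finset.prod_ne_zero_iff.mpr fun r hr => (htk r (hprime r hr)).1
  have hT0 : (∏ r ∈ PP, t r) * tB ≠ 0 := mul_ne_zero hprod0 htB0
  have hdvd : A.index ∣ (∏ r ∈ PP, t r) * tB := by
    rw [← Nat.factorization_prime_le_iff_dvd hA0 hT0]
    intro r hr
    by_cases hle : r ≤ n + 1
    · have hmem : r ∈ PP := Finset.mem_filter.mpr ⟨Finset.mem_range.mpr (by omega), hr⟩
      have h1 : t r ∣ (∏ r ∈ PP, t r) * tB :=
        (Finset.dvd_prod_of_mem t hmem).trans (dvd_mul_right _ _)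
      exact (htk r hr).2.1.trans
        ((Nat.factorization_le_iff_dvd (htk r hr).1 hT0).mpr h1 r)
    · have h1 : ¬ r ∣ B.index := fun h => hle (hBidx r hr h)
      have h2 : tB ∣ (∏ r ∈ PP, t r) * tB := dvd_mul_left _ _
      exact (factorization_index_le A B h1).trans
        ((Nat.factorization_le_iff_dvd htB0 hT0).mpr h2 r)
  have hcard : PP.card = Nat.primeCounting (n + 1) := by
    rw [hPP, Nat.primeCounting, Nat.primeCounting', Nat.count_eq_card_filter_range]
  have hk : ∏ r ∈ PP, k r ≤ n.factorial := by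
    apply Nat.le_of_dvd (Nat.factorial_pos n)
    exact prod_pow_dvd PP hprime k (fun r hr => (htk r (hprime r hr)).2.2.2.1) _
      (fun r hr => (htk r (hprime r hr)).2.2.1)
  calc A.index ≤ (∏ r ∈ PP, t r) * tB := Nat.le_of_dvd (Nat.pos_of_ne_zero hT0) hdvd
    _ ≤ (∏ r ∈ PP, k r * 12 ^ n) * 12 ^ n := by
        apply Nat.mul_le_mul
        · exact Finset.prod_le_prod' fun r hr => (htk r (hprime r hr)).2.2.2.2
        · exact hA B hBab
    _ = (∏ r ∈ PP, k r) * 12 ^ (n * (Nat.primeCounting (n + 1) + 1)) := by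
        rw [Finset.prod_mul_distrib, Finset.prod_const, hcard, mul_assoc, ← pow_mul, ← pow_add]
        ring_nf
    _ ≤ n.factorial * 12 ^ (n * (Nat.primeCounting (n + 1) + 1)) := Nat.mul_le_mul_right _ hk

end Cfsg.Agent.Lib.Helper2.Jor
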