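import Mathlib

/-! Unitarization of a finite matrix group. -/

set_option autoImplicit false

namespace Cfsg.Agent.Lib.Helper2.Jor

open Matrix
open scoped MatrixOrder ComplexOrder

theorem exists_unitarizer {G : Type*} [Group G] [Finite G] {n : ℕ}
    (M : G →* Matrix (Fin n) (Fin n) ℂ) :
    ∃ B : Matrix (Fin n) (Fin n) ℂ, IsUnit B ∧
      ∀ g, (B * M g * B⁻¹)ᴴ * (B * M g * B⁻¹) = 1 := by
  classical
  let _ := Fintype.ofFinite G
  set Q : Matrix (Fin n) (Fin n) ℂ := ∑ g : G, (M g)ᴴ * M g with hQ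
  have hpd : Q.PosDef := by
    have h1 : Q = (M 1)ᴴ * M 1 + ∑ g ∈ Finset.univ.erase (1 : G), (M g)ᴴ * M g := by
      rw [hQ]
      exact (Finset.add_sum_erase _ (fun g => (M g)ᴴ * M g) (Finset.mem_univ _)).symm
    rw [h1, map_one, conjTranspose_one, one_mul]
    exact PosDef.one.add_posSemidef
      (posSemidef_sum _ fun g _ => posSemidef_conjTranspose_mul_self _)
  have hinv : ∀ h : G, (M h)ᴴ * Q * M h = Q := by
    intro h
    have h2 : Q = ∑ g : G, (M (g * h))ᴴ * M (g * h) := by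
      rw [hQ]
      exact (Equiv.sum_comp (Equiv.mulRight h) (fun g => (M g)ᴴ * M g)).symm
    conv_rhs => rw [h2]
    rw [hQ, Finset.mul_sum, Finset.sum_mul]
    apply Finset.sum_congr rfl
    intro g _
    rw [map_mul, conjTranspose_mul]
    simp only [Matrix.mul_assoc]
  obtain ⟨B, hB⟩ := CStarAlgebra.nonneg_iff_eq_star_mul_self.mp hpd.posSemidef.nonneg
  rw [star_eq_conjTranspose] at hB
  have hQu : IsUnit Q := hpd.isUnit
  have hBu : IsUnit B := by
    rw [hB] at hQu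
    exact isUnit_of_mul_isUnit_right hQu
  refine ⟨B, hBu, fun g => ?_⟩
  have hdet : IsUnit B.det := (Matrix.isUnit_iff_isUnit_det B).mp hBu
  have h1 : (B * M g * B⁻¹)ᴴ * (B * M g * B⁻¹) = (B⁻¹)ᴴ * ((M g)ᴴ * (Bᴴ * B) * M g) * B⁻¹ := by
    simp only [conjTranspose_mul, Matrix.mul_assoc]
  rw [h1, ← hB, hinv g, hB]
  have h2 : (B⁻¹)ᴴ * (Bᴴ * B) * B⁻¹ = ((B * B⁻¹)ᴴ) * (B * B⁻¹) := by
    simp only [conjTranspose_mul, Matrix.mul_assoc]
  rw [h2, Matrix.mul_nonsing_inv B hdet, conjTranspose_one, one_mul]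

end Cfsg.Agent.Lib.Helper2.Jor
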