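import Mathlib
import Cfsg.Agent.Lib.Helper2.ZStarGen

/-! Consequences of Brauer–Suzuki: the normal subgroup `O(G)⟨t⟩`. -/

set_option autoImplicit false
open Cfsg

namespace Cfsg.Agent.Lib.Helper2

variable {G : Type*} [Group G] [Finite G]

/-- two elements of a Sylow 2-subgroup that agree modulo `O(G)` are equal -/
theorem sylow_eq_of_mul_inv_mem_oddCore (S : Sylow 2 G) {a b : G} (ha : a ∈ (S : Subgroup G))
    (hb : b ∈ (S : Subgroup G)) (hab : a * b⁻¹ ∈ Cfsg.oddCore G) : a = b := by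
  have hm : a * b⁻¹ ∈ (S : Subgroup G) := Subgroup.mul_mem _ ha (Subgroup.inv_mem _ hb)
  obtain ⟨k, hk⟩ := (IsPGroup.iff_orderOf.mp S.2) ⟨_, hm⟩
  rw [Subgroup.orderOf_mk] at hk
  have hd : orderOf (a * b⁻¹) ∣ Nat.card (Cfsg.oddCore G) := by
    have := orderOf_dvd_natCard (⟨_, hab⟩ : Cfsg.oddCore G)
    rwa [Subgroup.orderOf_mk] at this
  have hcop : Nat.Coprime (orderOf (a * b⁻¹)) (Nat.card (Cfsg.oddCore G)) := by
    rw [hk]
    exact Nat.Coprime.pow_left k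
      (Cfsg.Agent.Lib.Helper8.coprime_card_pPrimeCore (G := G) 2).symm
  have h1 := Nat.Coprime.eq_one_of_dvd hcop hd
  exact mul_inv_eq_one.mp (orderOf_eq_one_iff.mp h1)

/-- `S ∩ O(G)T = T` for `T ≤ S`. -/
theorem mem_of_mem_oddCore_sup (S : Sylow 2 G) {T : Subgroup G} (hT : T ≤ (S : Subgroup G)) {x : G}
    (hx : x ∈ (S : Subgroup G)) (hxM : x ∈ Cfsg.oddCore G ⊔ T) : x ∈ T := by
  haveI hKn : (Cfsg.oddCore G).Normal := Cfsg.pPrimeCore_normal 2 G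
  have h1 : x ∈ ((Cfsg.oddCore G ⊔ T : Subgroup G) : Set G) := hxM
  rw [Subgroup.normal_mul] at h1
  obtain ⟨o, ho, s, hs, rfl⟩ := h1
  have : o * s = s := by
    apply sylow_eq_of_mul_inv_mem_oddCore S hx (hT hs)
    simpa using ho
  show o * s ∈ T
  rw [this]; exact hs

/-- If `t` is central modulo `O(G)` then `O(G)⟨t⟩` is normal. -/
theorem normal_oddCore_sup_zpowers {t : G} (ht : ∀ g : G, t * g * t⁻¹ * g⁻¹ ∈ Cfsg.oddCore G) :
    (Cfsg.oddCore G ⊔ Subgroup.zpowers t).Normal := by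
  haveI hKn : (Cfsg.oddCore G).Normal := Cfsg.pPrimeCore_normal 2 G
  have hconj : ∀ g : G, g * t * g⁻¹ ∈ Cfsg.oddCore G ⊔ Subgroup.zpowers t := by
    intro g
    have e : g * t * g⁻¹ = (t * g * t⁻¹ * g⁻¹)⁻¹ * t := by group
    rw [e]
    exact Subgroup.mul_mem _ (Subgroup.mem_sup_left (Subgroup.inv_mem _ (ht g)))
      (Subgroup.mem_sup_right (Subgroup.mem_zpowers t))
  constructor
  intro x hx g
  have h1 : x ∈ ((Cfsg.oddCore G ⊔ Subgroup.zpowers t : Subgroup G) : Set G) := hx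
  rw [Subgroup.normal_mul] at h1
  obtain ⟨o, ho, s, hs, rfl⟩ := h1
  obtain ⟨k, rfl⟩ := Subgroup.mem_zpowers_iff.mp hs
  have e : g * (o * t ^ k) * g⁻¹ = (g * o * g⁻¹) * (g * t * g⁻¹) ^ k := by
    rw [conj_zpow]; group
  show g * (o * t ^ k) * g⁻¹ ∈ _
  rw [e]
  exact Subgroup.mul_mem _ (Subgroup.mem_sup_left (hKn.conj_mem _ ho g))
    (Subgroup.zpow_mem _ (hconj g) k)

/-- Package: for a generalized quaternion Sylow 2-subgroup there is the involution `t ∈ S`,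
central modulo `O(G)`, to which every involution is conjugate. -/
theorem quat_sylow_involution (S : Sylow 2 G) (n : ℕ)
    (e : (S : Subgroup G) ≃* QuaternionGroup (2 ^ (n + 1))) :
    ∃ t : G, t ∈ (S : Subgroup G) ∧ orderOf t = 2 ∧
      (∀ g : G, t * g * t⁻¹ * g⁻¹ ∈ Cfsg.oddCore G) ∧
      (∀ u ∈ (S : Subgroup G), orderOf u = 2 → u = t) ∧
      (∀ u : G, orderOf u = 2 → ∃ c : G, c * u * c⁻¹ = t) ∧
      ∃ a b : G, Cfsg.Agent.Lib.Helper27.BS.QS (S : Subgroup G) a b (n + 1) ∧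
        t = a ^ (2 ^ (n + 1)) := by
  haveI : Fact (Nat.Prime 2) := ⟨Nat.prime_two⟩
  have hQ := Cfsg.Agent.Lib.Helper27.BS.qs_of_equiv (S : Subgroup G) (n + 1) (by omega) e
  obtain ⟨a, ha⟩ : ∃ a : G, a = ((e.symm (QuaternionGroup.a 1) : (S : Subgroup G)) : G) := ⟨_, rfl⟩
  obtain ⟨b, hb⟩ : ∃ b : G, b = ((e.symm (QuaternionGroup.xa 0) : (S : Subgroup G)) : G) := ⟨_, rfl⟩
  rw [← ha, ← hb] at hQ
  obtain ⟨t, ht⟩ : ∃ t : G, t = a ^ (2 ^ (n + 1)) := ⟨_, rfl⟩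
  have ht1 : t ≠ 1 := ht ▸ hQ.t_ne_one
  have htt : t * t = 1 := by
    rw [ht, ← pow_add, ← two_mul, ← pow_succ', ← hQ.ord, pow_orderOf_eq_one]
  have ht2 : orderOf t = 2 := orderOf_two_of_mul_self htt ht1
  have huniq : ∀ u ∈ (S : Subgroup G), orderOf u = 2 → u = t := by
    intro u hu h2
    rcases hQ.uniq _ hu (mul_self_of_orderOf_two h2) with h | h
    · exact absurd h (ne_one_of_orderOf_two h2)
    · rw [h, ht]
  have hiso : ∀ g : G, g * t * g⁻¹ ∈ S → g * t * g⁻¹ = t := by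
    intro g hg
    exact huniq _ hg ((orderOf_conj_eq g t).trans ht2)
  refine ⟨t, ht ▸ Subgroup.pow_mem _ hQ.ha _, ht2, zstar_sylow S t ht2 hiso, huniq, ?_,
    a, b, hQ, ht⟩
  intro u hu
  obtain ⟨c, hc⟩ := hQ.invol_conj (mul_self_of_orderOf_two hu) (ne_one_of_orderOf_two hu)
  exact ⟨c, hc.trans ht.symm⟩

end Cfsg.Agent.Lib.Helper2
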