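import Mathlib
import Cfsg.Prelude.Def_Characters
import Cfsg.Prelude.Def_Blocks
import Cfsg.Agent.Lib.Helper2.CharMore
import Cfsg.Agent.Lib.Helper2.Induction
import Cfsg.Agent.Lib.Helper24.CharInt

set_option autoImplicit false

namespace Cfsg.Agent.Lib.Helper2.TITrick

open Cfsg Cfsg.Agent.Lib.Helper2
open scoped ComplexConjugate

variable {G : Type*} [Group G] [Fintype G]

theorem ind_one_of_fix (N : Subgroup G) {y : G}
    (h : ∀ x : G, x⁻¹ * y * x ∈ N ↔ x ∈ N) :
    Cfsg.indFun N (fun _ => 1) y = 1 := by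
  classical
  simp only [Cfsg.indFun]
  have h1 : ∀ x : G, Cfsg.extendByZero N (fun _ => (1 : ℂ)) (x⁻¹ * y * x)
      = if x ∈ N then 1 else 0 := by
    intro x
    by_cases hx : x ∈ N
    · rw [if_pos hx, extendByZero_mem N _ ((h x).2 hx)]
    · rw [if_neg hx, extendByZero_not_mem N _ (fun hh => hx ((h x).1 hh))]
  simp_rw [h1]
  rw [sum_ite_mem_subgroup, mul_one, inv_mul_cancel₀ (card_subgroup_ne_zero N)]

theorem ind_one_one (N : Subgroup G) :
    Cfsg.indFun N (fun _ => 1) 1 = (N.index : ℂ) := by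
  classical
  simp only [Cfsg.indFun]
  have h1 : ∀ x : G, Cfsg.extendByZero N (fun _ => (1 : ℂ)) (x⁻¹ * 1 * x) = 1 := by
    intro x
    rw [extendByZero_mem N _ (by simp)]
  simp_rw [h1]
  rw [Finset.sum_const, Finset.card_univ, nsmul_eq_mul, mul_one, ← Nat.card_eq_fintype_card,
    ← N.index_mul_card]
  push_cast
  field_simp [card_subgroup_ne_zero N]

/-- If `ξ` restricted to `N` contains the trivial character, so does its restriction to `P ≤ N`. -/
theorem one_le_of_ne_zero {P N : Subgroup G} (hPN : P ≤ N) {ξ : G → ℂ} (hξ : IsCharacter G ξ)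
    [Fintype N] [Fintype P]
    (h : classInner (fun y : N => ξ y) (fun _ => 1) ≠ 0) :
    ∃ k : ℕ, classInner (fun y : P => ξ y) (fun _ => 1) = (k : ℂ) + 1 := by
  have h1 : IsCharacter N ((fun y : N => ξ y) - fun _ => 1) :=
    IsCharacter.sub_irr (IsCharacter.restrict N hξ) isIrrCharacter_one h
  have h2 := IsCharacter.comp_hom (Subgroup.inclusion hPN) h1
  obtain ⟨k, hk⟩ := IsCharacter.classInner_nat h2
    (IsIrrCharacter.isCharacter (isIrrCharacter_one (G := P)))
  refine ⟨k, ?_⟩
  have h3 : (fun y : P => ξ y) = (fun h : P => (((fun y : N => ξ y) - fun _ => 1 : N → ℂ))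
      (Subgroup.inclusion hPN h)) + fun _ => 1 := by
    funext y
    simp
  rw [h3, classInner_add_left, hk,
    classInner_irr (isIrrCharacter_one (G := P)) (isIrrCharacter_one (G := P)), if_pos rfl]

theorem main (P N : Subgroup G) (hPN : P ≤ N)
    (hfix : ∀ y ∈ P, y ≠ 1 → ∀ x : G, x⁻¹ * y * x ∈ N → x ∈ N)
    (hdeg : ∀ ξ : IrrCharacter G, charDegree (ξ : G → ℂ) < Nat.card P) : N = ⊤ := by
  classical
  haveI := finite_irr (G := G)
  cases nonempty_fintype (IrrCharacter G)
  set π : G → ℂ := Cfsg.indFun N (fun _ => 1) with hπ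
  have hπc : IsCharacter G π :=
    IsCharacter.indFun N (IsIrrCharacter.isCharacter (isIrrCharacter_one (G := N)))
  obtain ⟨m, hm⟩ := IsCharacter.exists_eq_sum hπc
  have hmξ : ∀ ξ : IrrCharacter G, classInner π ξ = m ξ := by
    intro ξ
    rw [hm]
    exact classInner_sum_irr_left (fun φ => (m φ : ℂ)) ξ
  -- multiplicities in the restriction to P
  choose a ha using fun ξ : IrrCharacter G =>
    IsCharacter.classInner_nat (IsCharacter.restrict P (IsIrrCharacter.isCharacter ξ.2))
      (IsIrrCharacter.isCharacter (isIrrCharacter_one (G := P)))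
  let triv : IrrCharacter G := ⟨fun _ => 1, isIrrCharacter_one⟩
  have hrec : ∀ ξ : IrrCharacter G, classInner π ξ
      = classInner (fun _ : N => (1 : ℂ)) (fun y : N => (ξ : G → ℂ) y) := fun ξ =>
    frobenius_reciprocity N _ _ (IsCharacter.isClassFunction (IsIrrCharacter.isCharacter ξ.2))
  have hm1 : m triv = 1 := by
    have h1 := hrec triv
    rw [hmξ] at h1
    have h2 : classInner (fun _ : N => (1 : ℂ)) (fun y : N => (triv : G → ℂ) y) = 1 := by
      have := classInner_irr (isIrrCharacter_one (G := N)) (isIrrCharacter_one (G := N))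
      rw [if_pos rfl] at this
      exact this
    rw [h2] at h1
    exact_mod_cast h1
  have ha1 : a triv = 1 := by
    have h1 := ha triv
    have h2 : classInner (fun y : P => (triv : G → ℂ) y) (fun _ : P => (1 : ℂ)) = 1 := by
      have := classInner_irr (isIrrCharacter_one (G := P)) (isIrrCharacter_one (G := P))
      rw [if_pos rfl] at this
      exact this
    rw [h2] at h1
    exact_mod_cast h1.symm
  have hma : ∀ ξ : IrrCharacter G, m ξ ≤ m ξ * a ξ := by
    intro ξ
    rcases Nat.eq_zero_or_pos (m ξ) with h0 | h0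
    · rw [h0]; simp
    · have h1 : classInner (fun y : N => (ξ : G → ℂ) y) (fun _ => 1) ≠ 0 := by
        intro h2
        have h3 := hrec ξ
        rw [hmξ, ← classInner_conj_symm, h2, map_zero] at h3
        have : m ξ = 0 := by exact_mod_cast h3
        omega
      obtain ⟨k, hk⟩ := one_le_of_ne_zero hPN (IsIrrCharacter.isCharacter ξ.2) h1
      rw [ha ξ] at hk
      have : a ξ = k + 1 := by exact_mod_cast hk
      rw [this]
      nlinarith
  -- degree count
  have hdeg1 : (N.index : ℂ) = ∑ ξ : IrrCharacter G, ((m ξ * charDegree (ξ : G → ℂ) : ℕ) : ℂ) := by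
    rw [← ind_one_one N, ← hπ, hm, Finset.sum_apply]
    refine Finset.sum_congr rfl fun ξ _ => ?_
    rw [Pi.smul_apply, smul_eq_mul, Nat.cast_mul,
      Cfsg.Agent.Lib.Helper24.charDegree_cast (IsIrrCharacter.isCharacter ξ.2)]
  have hdeg2 : N.index = ∑ ξ : IrrCharacter G, m ξ * charDegree (ξ : G → ℂ) := by
    have : (N.index : ℂ) = ((∑ ξ : IrrCharacter G, m ξ * charDegree (ξ : G → ℂ) : ℕ) : ℂ) := by
      rw [hdeg1]; push_cast; rfl
    exact_mod_cast this
  -- orbit count
  have hπP : ∀ y : P, π y = 1 + if y = 1 then ((N.index : ℂ) - 1) else 0 := by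
    intro y
    by_cases hy : y = 1
    · rw [if_pos hy, hy, Subgroup.coe_one, hπ, ind_one_one]; ring
    · rw [if_neg hy, add_zero, hπ]
      apply ind_one_of_fix
      intro x
      refine ⟨hfix y y.2 (fun h => hy (Subtype.ext h)) x, fun hx => ?_⟩
      exact N.mul_mem (N.mul_mem (N.inv_mem hx) (hPN y.2)) hx
  have horb1 : classInner (fun y : P => π y) (fun _ => 1)
      = (Nat.card P : ℂ)⁻¹ * ((Nat.card P : ℂ) + ((N.index : ℂ) - 1)) := by
    simp only [classInner, map_one, mul_one]
    congr 1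
    simp_rw [hπP]
    rw [Finset.sum_add_distrib, Finset.sum_ite_eq' Finset.univ (1 : P), if_pos (Finset.mem_univ _),
      Finset.sum_const, Finset.card_univ, nsmul_eq_mul, mul_one, Nat.card_eq_fintype_card]
  have horb2 : classInner (fun y : P => π y) (fun _ => 1)
      = ∑ ξ : IrrCharacter G, ((m ξ * a ξ : ℕ) : ℂ) := by
    have h1 : (fun y : P => π y) = ∑ ξ : IrrCharacter G, (m ξ : ℂ) • fun y : P => (ξ : G → ℂ) y := by
      funext y
      rw [hm]
      simp [Finset.sum_apply]
    rw [h1, classInner_sum_left]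
    refine Finset.sum_congr rfl fun ξ _ => ?_
    rw [classInner_smul_left, ha ξ, Nat.cast_mul]
  have horb3 : Nat.card P * (∑ ξ : IrrCharacter G, m ξ * a ξ) + 1 = Nat.card P + N.index := by
    have h1 := horb1.symm.trans horb2
    have h2 : (Nat.card P : ℂ) ≠ 0 := card_subgroup_ne_zero P
    have h3 : (Nat.card P : ℂ) + ((N.index : ℂ) - 1)
        = (Nat.card P : ℂ) * ∑ ξ : IrrCharacter G, ((m ξ * a ξ : ℕ) : ℂ) := by
      rw [← h1]; field_simp
    have h4 : ((Nat.card P * (∑ ξ : IrrCharacter G, m ξ * a ξ) + 1 : ℕ) : ℂ)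
        = ((Nat.card P + N.index : ℕ) : ℂ) := by
      push_cast
      push_cast at h3
      rw [← h3]; ring
    exact_mod_cast h4
  -- the inequality
  set q := Nat.card P with hq
  have hq2 : 2 ≤ q := by
    have := hdeg triv
    have h1 := Cfsg.Agent.Lib.Helper24.charDegree_pos triv.2
    omega
  have hpt : ∀ ξ : IrrCharacter G, m ξ * charDegree (ξ : G → ℂ) + (if ξ = triv then q - 2 else 0)
      ≤ (q - 1) * (m ξ * a ξ) := by
    intro ξ
    by_cases hξ : ξ = triv
    · rw [if_pos hξ, hξ, hm1, ha1]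
      have h1 : charDegree (triv : G → ℂ) = 1 := by
        have := Cfsg.Agent.Lib.Helper24.charDegree_cast (IsIrrCharacter.isCharacter triv.2)
        have h2 : (triv : G → ℂ) 1 = 1 := rfl
        rw [h2] at this
        exact_mod_cast this
      rw [h1]
      omega
    · rw [if_neg hξ, add_zero]
      have h1 : charDegree (ξ : G → ℂ) ≤ q - 1 := by have := hdeg ξ; omega
      calc m ξ * charDegree (ξ : G → ℂ) ≤ m ξ * (q - 1) := Nat.mul_le_mul_left _ h1
        _ = (q - 1) * m ξ := Nat.mul_comm _ _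
        _ ≤ (q - 1) * (m ξ * a ξ) := Nat.mul_le_mul_left _ (hma ξ)
  have hsum := Finset.sum_le_sum (fun ξ (_ : ξ ∈ (Finset.univ : Finset (IrrCharacter G))) => hpt ξ)
  rw [Finset.sum_add_distrib, ← hdeg2, Finset.sum_ite_eq' Finset.univ triv,
    if_pos (Finset.mem_univ _), ← Finset.mul_sum] at hsum
  set S := ∑ ξ : IrrCharacter G, m ξ * a ξ with hS
  have hidx : N.index = 1 := by
    have hpos : 0 < N.index := Nat.pos_of_ne_zero (Subgroup.index_ne_zero_of_finite)
    obtain ⟨r, hr⟩ : ∃ r, q = r + 2 := ⟨q - 2, by omega⟩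
    rw [hr] at hsum horb3
    simp only [Nat.add_sub_cancel] at hsum
    have h5 : r + 2 - 1 = r + 1 := by omega
    rw [h5] at hsum
    nlinarith
  exact Subgroup.index_eq_one.mp hidx

end Cfsg.Agent.Lib.Helper2.TITrick
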