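import Mathlib
import Cfsg.Prelude.Def_Characters
import Cfsg.Prelude.Def_Blocks
import Cfsg.Agent.Lib.Helper2.TITrick
import Cfsg.Agent.Lib.Helper2.Inflation
import Cfsg.Agent.Lib.Helper6.Cover3
import Cfsg.Agent.S0187
import Cfsg.Agent.S0135

set_option autoImplicit false

namespace Cfsg.Agent.Lib.Helper2.SmallDeg

open Cfsg Cfsg.Agent.Lib.Helper2
open scoped ComplexConjugate

universe u

theorem deg_sub {G : Type*} [Group G] [Finite G] {b : ℕ}
    (hb : ∀ χ : IrrCharacter G, charDegree (χ : G → ℂ) < b) (H : Subgroup G)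
    (ψ : IrrCharacter H) : charDegree (ψ : H → ℂ) < b := by
  classical
  cases nonempty_fintype G
  obtain ⟨χ, hχ⟩ := Cfsg.Agent.Lib.Helper6.exists_irr_above H ψ
  have h0 := IsCharacter.restrict H (IsIrrCharacter.isCharacter χ.2)
  have h1 := IsCharacter.sub_irr h0 ψ.2 hχ
  obtain ⟨k, hk⟩ := IsCharacter.apply_one h1
  have h2 := Cfsg.Agent.Lib.Helper24.charDegree_cast (IsIrrCharacter.isCharacter χ.2)
  have h3 := Cfsg.Agent.Lib.Helper24.charDegree_cast (IsIrrCharacter.isCharacter ψ.2)
  have h4 : (charDegree (χ : G → ℂ) : ℂ) = ((charDegree (ψ : H → ℂ) + k : ℕ) : ℂ) := by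
    push_cast
    rw [h2, h3, ← hk]
    simp
  have h5 : charDegree (χ : G → ℂ) = charDegree (ψ : H → ℂ) + k := by exact_mod_cast h4
  have := hb χ
  omega

theorem deg_quot {G : Type*} [Group G] [Finite G] {b : ℕ}
    (hb : ∀ χ : IrrCharacter G, charDegree (χ : G → ℂ) < b) (D : Subgroup G) [D.Normal]
    (ψ : IrrCharacter (G ⧸ D)) : charDegree (ψ : G ⧸ D → ℂ) < b := by
  classical
  cases nonempty_fintype G
  have h1 := IsIrrCharacter.inflate D ψ.2
  have h2 := hb ⟨_, h1⟩
  exact h2

theorem abelian_of_pgroup {P : Type*} [Group P] [Finite P] {p : ℕ} (hp : p.Prime)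
    (hP : IsPGroup p P) (hb : ∀ χ : IrrCharacter P, charDegree (χ : P → ℂ) < p) :
    ∀ a b : P, a * b = b * a := by
  rw [Cfsg.Agent.S0187.result]
  intro χ
  have h0 := hb χ
  have h3 := Cfsg.Agent.Lib.Helper24.charDegree_cast (IsIrrCharacter.isCharacter χ.2)
  obtain ⟨n, ρ, hρ, hχ⟩ := χ.2
  have h1 : Module.finrank ℂ (Fin n → ℂ) ∣ Nat.card P := by
    have _ := hρ
    exact Cfsg.Agent.S0135.result ρ
  rw [Module.finrank_fin_fun] at h1
  have h2 : (χ : P → ℂ) 1 = n := by
    rw [← hχ, Representation.char_one, Module.finrank_fin_fun]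
  rw [h2] at h3
  have h4 : charDegree (χ : P → ℂ) = n := by exact_mod_cast h3
  have _ : Fact p.Prime := ⟨hp⟩
  obtain ⟨k, hk⟩ := IsPGroup.iff_card.mp hP
  rw [hk] at h1
  obtain ⟨j, _, hj⟩ := (Nat.dvd_prime_pow hp).1 h1
  rcases Nat.eq_zero_or_pos j with h | h
  · rw [h2, hj, h]; simp
  · exfalso
    have : p ≤ p ^ j := Nat.le_self_pow (by omega) p
    omega

theorem all_normal : ∀ (n : ℕ) (G : Type u) [Group G] [Finite G], Nat.card G = n →
    ∀ (p : ℕ) [Fact p.Prime], (∀ χ : IrrCharacter G, charDegree (χ : G → ℂ) < p) →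
    ∀ P : Sylow p G, (P : Subgroup G).Normal := by
  intro n
  induction n using Nat.strong_induction_on with
  | _ n ih =>
  intro G _ _ hn p hpf hb P
  classical
  cases nonempty_fintype G
  have hp : p.Prime := hpf.out
  have hab : ∀ Q : Sylow p G, ∀ a ∈ (Q : Subgroup G), ∀ b ∈ (Q : Subgroup G), a * b = b * a := by
    intro Q a ha b hb'
    have := abelian_of_pgroup hp Q.isPGroup' (deg_sub hb (Q : Subgroup G)) ⟨a, ha⟩ ⟨b, hb'⟩
    exact congrArg Subtype.val this
  by_cases hP1 : (P : Subgroup G) = ⊥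
  · rw [hP1]; infer_instance
  have hcard : p ≤ Nat.card (P : Subgroup G) := by
    obtain ⟨k, hk⟩ := IsPGroup.iff_card.mp P.isPGroup'
    rcases Nat.eq_zero_or_pos k with h | h
    · exfalso
      rw [h, pow_zero] at hk
      exact hP1 ((Subgroup.card_eq_one).mp hk)
    · rw [hk]; exact Nat.le_self_pow (by omega) p
  rw [← Subgroup.normalizer_eq_top_iff]
  apply TITrick.main (P : Subgroup G) _ Subgroup.le_normalizer _
    (fun ξ => lt_of_lt_of_le (hb ξ) hcard)
  intro y hy hy1 x hx
  -- z = x⁻¹ y x lies in P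
  have hzQ : x⁻¹ * y * x ∈ ((x⁻¹ • P : Sylow p G) : Subgroup G) := by
    rw [Sylow.coe_subgroup_smul, Subgroup.mem_pointwise_smul_iff_inv_smul_mem]
    simpa [MulAut.smul_def, mul_assoc] using hy
  have hzP : x⁻¹ * y * x ∈ (P : Subgroup G) := by
    have h1 : IsPGroup p (Subgroup.zpowers (x⁻¹ * y * x)) :=
      (x⁻¹ • P : Sylow p G).isPGroup'.to_le (Subgroup.zpowers_le.2 hzQ)
    have h2 : IsPGroup p (Subgroup.zpowers (x⁻¹ * y * x) ⊔ (P : Subgroup G) : Subgroup G) :=
      h1.to_sup_of_normal_right' P.isPGroup' (Subgroup.zpowers_le.2 hx)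
    have h3 := P.is_maximal' h2 le_sup_right
    rw [← h3]
    exact (le_sup_left : Subgroup.zpowers (x⁻¹ * y * x) ≤ _) (Subgroup.mem_zpowers _)
  have hyQ : y ∈ ((x • P : Sylow p G) : Subgroup G) := by
    rw [Sylow.coe_subgroup_smul, Subgroup.mem_pointwise_smul_iff_inv_smul_mem]
    simpa [MulAut.smul_def, mul_assoc] using hzP
  suffices hsuff : x • P = P from Sylow.smul_eq_iff_mem_normalizer.mp hsuff
  set Q : Sylow p G := x • P with hQ
  by_cases hC : Subgroup.centralizer ({y} : Set G) = ⊤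
  · -- y central
    have hycen : ∀ g : G, g * y = y * g := by
      intro g
      have : g ∈ Subgroup.centralizer ({y} : Set G) := by rw [hC]; trivial
      exact (Subgroup.mem_centralizer_singleton_iff.mp this)
    have hDn : (Subgroup.zpowers y).Normal := by
      refine ⟨fun d hd g => ?_⟩
      obtain ⟨k, rfl⟩ := Subgroup.mem_zpowers_iff.mp hd
      have : g * y ^ k * g⁻¹ = y ^ k := by
        have hc : Commute g y := hycen g
        rw [(hc.zpow_right k).eq, mul_inv_cancel_right]
      rw [this]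
      exact Subgroup.zpow_mem_zpowers y k
    have hlt : Nat.card (G ⧸ Subgroup.zpowers y) < n := by
      rw [← hn, ← Subgroup.card_mul_index (Subgroup.zpowers y), Subgroup.index]
      have h1 : 1 < Nat.card (Subgroup.zpowers y) := by
        rw [Nat.card_zpowers]
        have h2 : orderOf y ≠ 1 := fun h => hy1 (orderOf_eq_one_iff.mp h)
        have h3 := orderOf_pos y
        omega
      have h2 : 0 < Nat.card (G ⧸ Subgroup.zpowers y) := Nat.card_pos
      nlinarith
    have hnorm := ih _ hlt (G ⧸ Subgroup.zpowers y) rfl p (deg_quot hb (Subgroup.zpowers y))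
      (P.mapSurjective (QuotientGroup.mk'_surjective (Subgroup.zpowers y)))
    rw [Sylow.coe_mapSurjective] at hnorm
    have h1 := hnorm.comap (QuotientGroup.mk' (Subgroup.zpowers y))
    rw [Subgroup.comap_map_eq, QuotientGroup.ker_mk',
      sup_eq_left.mpr (Subgroup.zpowers_le.2 hy)] at h1
    have _ := h1
    exact Sylow.smul_eq_of_normal
  · -- proper centralizer
    set C := Subgroup.centralizer ({y} : Set G) with hCdef
    have hlt : Nat.card C < n := by
      rw [← hn]
      by_contra hcon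
      exact hC (Subgroup.eq_top_of_le_card _ (not_lt.mp hcon))
    have hPC : (P : Subgroup G) ≤ C := by
      intro a ha
      rw [hCdef, Subgroup.mem_centralizer_singleton_iff]
      exact hab P a ha y hy
    have hQC : (Q : Subgroup G) ≤ C := by
      intro a ha
      rw [hCdef, Subgroup.mem_centralizer_singleton_iff]
      exact hab Q a ha y hyQ
    have hnorm := ih _ hlt C rfl p (deg_sub hb C) (P.subtype hPC)
    obtain ⟨c, hc⟩ := MulAction.exists_smul_eq C (P.subtype hPC) (Q.subtype hQC)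
    have _ := hnorm
    rw [Sylow.smul_eq_of_normal] at hc
    exact (Sylow.subtype_injective hc).symm

end Cfsg.Agent.Lib.Helper2.SmallDeg
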